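import Cfsg.Agent.H14.SnGL
import Cfsg.Agent.H43.SnRed
import Cfsg.Agent.H52.SpDefs

/-!
# S2944, piece SP-GLP (and SP-CM), for helper52's project

The elements of odd order of `J(X)` commute modulo `Q` as soon as `[C_X(V), J(X)] ≤ Q`:
Glauberman's structure theorem S0617 in the holomorph of `V` gives `ψ(J(X)) = ∏ E_i` with
`E_i ≅ SL(2,2)`; lifts `u`, `v` of squares of elements of `E_i ≠ E_j` have `c = [u,v] ∈ C`,
which is centralized modulo `Q` by a lift `t` of an element of `E_i` inverting `ψ(u)`; this gives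
`c ≡ c⁻¹`, and `c³ ≡ [u³, v] ≡ 1` as `u³ ∈ C`.
-/

set_option autoImplicit false
set_option linter.unusedVariables false

open Cfsg
open scoped commutatorElement Pointwise

namespace Cfsg.Agent.H68.Sp

open Cfsg.Agent.H14.Holo Cfsg.Agent.H52.Sn

universe u v w

theorem sl22_sq_cube : ∀ A : Matrix.SpecialLinearGroup (Fin 2) (ZMod 2),
    (A * A) * (A * A) * (A * A) = 1 := by decide

theorem sl22_sq_inv : ∀ A : Matrix.SpecialLinearGroup (Fin 2) (ZMod 2),
    ∃ B : Matrix.SpecialLinearGroup (Fin 2) (ZMod 2), B * (A * A) * B⁻¹ = (A * A)⁻¹ := by decide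

theorem sl22_sq_same : ∀ A B : Matrix.SpecialLinearGroup (Fin 2) (ZMod 2),
    A * A = 1 ∨ B * B = 1 ∨ B * B = A * A ∨ B * B = (A * A) * (A * A) := by decide

/-- The word computation: `d = [a,b]` commuting with `a` and `s`, `s` inverting `a` and
centralizing `b` up to elements `z1`, `z2` commuting with enough, and `a³` commuting with `b`. -/
theorem word_comm {G : Type u} [Group G] (a b s z1 z2 d : G)
    (hd : d = a * b * a⁻¹ * b⁻¹)
    (hda : d * a = a * d) (hds : d * s = s * d)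
    (hz1b : z1 * b = b * z1) (hz12 : z1 * z2 = z2 * z1) (hz2a : z2 * a = a * z2)
    (hsa : s * a * s⁻¹ = a⁻¹ * z1) (hsb : s * b * s⁻¹ = b * z2)
    (h3 : a * a * a * b = b * (a * a * a)) : a * b = b * a := by
  have e1 : s * d * s⁻¹ = d := by rw [← hds]; group
  have e2 : s * d * s⁻¹
      = (s * a * s⁻¹) * (s * b * s⁻¹) * (s * a * s⁻¹)⁻¹ * (s * b * s⁻¹)⁻¹ := by
    rw [hd]; group
  rw [hsa, hsb] at e2
  have e3 : a⁻¹ * z1 * (b * z2) * (a⁻¹ * z1)⁻¹ * (b * z2)⁻¹ = a⁻¹ * b * a * b⁻¹ := by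
    calc a⁻¹ * z1 * (b * z2) * (a⁻¹ * z1)⁻¹ * (b * z2)⁻¹
        = a⁻¹ * (z1 * b) * z2 * z1⁻¹ * a * z2⁻¹ * b⁻¹ := by group
      _ = a⁻¹ * (b * z1) * z2 * z1⁻¹ * a * z2⁻¹ * b⁻¹ := by rw [hz1b]
      _ = a⁻¹ * b * (z1 * z2) * z1⁻¹ * a * z2⁻¹ * b⁻¹ := by group
      _ = a⁻¹ * b * (z2 * z1) * z1⁻¹ * a * z2⁻¹ * b⁻¹ := by rw [hz12]
      _ = a⁻¹ * b * (z2 * a) * z2⁻¹ * b⁻¹ := by group
      _ = a⁻¹ * b * (a * z2) * z2⁻¹ * b⁻¹ := by rw [hz2a]
      _ = a⁻¹ * b * a * b⁻¹ := by group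
  have hdia : d⁻¹ * a = a * d⁻¹ := by
    calc d⁻¹ * a = d⁻¹ * (a * d) * d⁻¹ := by group
      _ = d⁻¹ * (d * a) * d⁻¹ := by rw [hda]
      _ = a * d⁻¹ := by group
  have e4 : a⁻¹ * b * a * b⁻¹ = d⁻¹ := by
    calc a⁻¹ * b * a * b⁻¹ = a⁻¹ * ((a * b * a⁻¹ * b⁻¹)⁻¹ * a) := by group
      _ = a⁻¹ * (d⁻¹ * a) := by rw [← hd]
      _ = a⁻¹ * (a * d⁻¹) := by rw [hdia]
      _ = d⁻¹ := by group
  have dd : d = d⁻¹ := e1.symm.trans (e2.trans (e3.trans e4))
  have d2 : d * d = 1 := by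
    have h := mul_inv_cancel d
    rw [← dd] at h
    exact h
  have c1 : a * b * a⁻¹ = d * b := by rw [hd]; group
  have c2 : a * a * b * (a * a)⁻¹ = d * d * b := by
    calc a * a * b * (a * a)⁻¹ = a * (a * b * a⁻¹) * a⁻¹ := by group
      _ = a * (d * b) * a⁻¹ := by rw [c1]
      _ = (a * d) * b * a⁻¹ := by group
      _ = (d * a) * b * a⁻¹ := by rw [hda]
      _ = d * (a * b * a⁻¹) := by group
      _ = d * (d * b) := by rw [c1]
      _ = d * d * b := by group
  have c3 : a * a * a * b * (a * a * a)⁻¹ = d * d * d * b := by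
    calc a * a * a * b * (a * a * a)⁻¹ = a * (a * a * b * (a * a)⁻¹) * a⁻¹ := by group
      _ = a * (d * d * b) * a⁻¹ := by rw [c2]
      _ = (a * d) * d * b * a⁻¹ := by group
      _ = (d * a) * d * b * a⁻¹ := by rw [hda]
      _ = d * (a * d) * b * a⁻¹ := by group
      _ = d * (d * a) * b * a⁻¹ := by rw [hda]
      _ = d * d * (a * b * a⁻¹) := by group
      _ = d * d * (d * b) := by rw [c1]
      _ = d * d * d * b := by group
  have c4 : a * a * a * b * (a * a * a)⁻¹ = b := by rw [h3]; group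
  have d3 : d * d * d = 1 := by
    have h : d * d * d * b = b := c3.symm.trans c4
    calc d * d * d = d * d * d * b * b⁻¹ := by group
      _ = b * b⁻¹ := by rw [h]
      _ = 1 := by group
  have d1 : d = 1 := by
    rw [d2, one_mul] at d3
    exact d3
  have h0 : a * b * a⁻¹ * b⁻¹ = 1 := hd.symm.trans d1
  calc a * b = (a * b * a⁻¹ * b⁻¹) * (b * a) := by group
    _ = b * a := by rw [h0, one_mul]

/-- The core: a homomorphism `ψ` with kernel `C`, `[C, M] ≤ Q`, and `ψ(M)` generated by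
independent normal copies of `SL(2,2)`: the elements of odd order of `M` commute modulo `Q`. -/
theorem oddq_core {X : Type u} {Y : Type v} [Group X] [Group Y] (ψ : X →* Y)
    (C Q M : Subgroup X) [Q.Normal] (hker : ψ.ker = C)
    (hCM : ∀ c ∈ C, ∀ m ∈ M, c * m * c⁻¹ * m⁻¹ ∈ Q)
    {ι : Type w} (E : ι → Subgroup Y)
    (hN : ∀ i, M.map ψ ≤ Subgroup.normalizer ((E i : Subgroup Y) : Set Y))
    (hiso : ∀ i, Nonempty (↥(E i) ≃* Matrix.SpecialLinearGroup (Fin 2) (ZMod 2)))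
    (hind : iSupIndep E) (hsup : (⨆ i, E i) = M.map ψ) :
    ∀ x ∈ M, ∀ y ∈ M, Odd (orderOf x) → Odd (orderOf y) → x * y * x⁻¹ * y⁻¹ ∈ Q := by
  intro x hx y hy hxo hyo
  obtain ⟨H, hHdef⟩ : ∃ H : Subgroup Y, H = M.map ψ := ⟨_, rfl⟩
  rw [← hHdef] at hN hsup
  -- facts in `Y` (after helper89's SN-GLA)
  have hEH : ∀ i, E i ≤ H := fun i => hsup ▸ le_iSup E i
  have hconj : ∀ i, ∀ h ∈ H, ∀ e ∈ E i, h * e * h⁻¹ ∈ E i := by
    intro i h hh e he
    exact (Subgroup.mem_normalizer_iff.mp (hN i hh) e).mp he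
  have hcomm : ∀ i j, i ≠ j → ∀ a ∈ E i, ∀ b ∈ E j, a * b = b * a := by
    intro i j hij a ha b hb
    have hd : Disjoint (E i) (E j) := hind.pairwiseDisjoint hij
    have h1 : a * b * a⁻¹ * b⁻¹ ∈ E i := by
      have h0 := hconj i b (hEH j hb) a⁻¹ ((E i).inv_mem ha)
      have e : a * b * a⁻¹ * b⁻¹ = a * (b * a⁻¹ * b⁻¹) := by group
      rw [e]
      exact (E i).mul_mem ha h0
    have h2 : a * b * a⁻¹ * b⁻¹ ∈ E j := by
      have h0 := hconj j a (hEH i ha) b hb
      exact (E j).mul_mem h0 ((E j).inv_mem hb)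
    have h3 := Subgroup.disjoint_def.mp hd h1 h2
    have e : a * b = (a * b * a⁻¹ * b⁻¹) * (b * a) := by group
    rw [e, h3, one_mul]
  obtain ⟨gens, hgens⟩ : ∃ gens : Set Y, gens = {s : Y | ∃ i, ∃ e ∈ E i, s = e * e} := ⟨_, rfl⟩
  obtain ⟨S, hSdef⟩ : ∃ S : Subgroup Y, S = Subgroup.closure gens := ⟨_, rfl⟩
  have hsq : ∀ i, ∀ e ∈ E i, e * e ∈ S := by
    intro i e he
    rw [hSdef]
    apply Subgroup.subset_closure
    rw [hgens]
    exact ⟨i, e, he, rfl⟩
  have hSn : ∀ h ∈ H, ∀ s ∈ S, h * s * h⁻¹ ∈ S := by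
    intro h hh s hs
    rw [hSdef] at hs
    induction hs using Subgroup.closure_induction with
    | mem s hs =>
      rw [hgens] at hs
      obtain ⟨i, e, he, rfl⟩ := hs
      have e1 : h * (e * e) * h⁻¹ = (h * e * h⁻¹) * (h * e * h⁻¹) := by group
      rw [e1]
      exact hsq i _ (hconj i h hh e he)
    | one =>
      have e1 : h * 1 * h⁻¹ = 1 := by group
      rw [e1]
      exact S.one_mem
    | mul a b _ _ ha hb =>
      have e1 : h * (a * b) * h⁻¹ = (h * a * h⁻¹) * (h * b * h⁻¹) := by group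
      rw [e1]
      exact S.mul_mem ha hb
    | inv a _ ha =>
      have e1 : h * a⁻¹ * h⁻¹ = (h * a * h⁻¹)⁻¹ := by group
      rw [e1]
      exact S.inv_mem ha
  have hD : ∀ i, ∀ e ∈ E i, ∀ g ∈ H, g * e * g⁻¹ * e⁻¹ ∈ S := by
    intro i e he g hg
    have key : g ∈ H ∧ g * e * g⁻¹ * e⁻¹ ∈ S := by
      rw [← hsup] at hg
      refine Subgroup.iSup_induction E (C := fun g => g ∈ H ∧ g * e * g⁻¹ * e⁻¹ ∈ S) hg ?_ ?_ ?_
      · intro j g hg
        refine ⟨hEH j hg, ?_⟩
        by_cases hij : j = i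
        · subst hij
          have e1 : g * e * g⁻¹ * e⁻¹
              = (g * e) * (g * e) * (e⁻¹ * (g⁻¹ * g⁻¹) * e⁻¹⁻¹) * (e⁻¹ * e⁻¹) := by group
          rw [e1]
          refine S.mul_mem (S.mul_mem (hsq j _ ((E j).mul_mem hg he)) ?_)
            (hsq j _ ((E j).inv_mem he))
          exact hSn e⁻¹ (H.inv_mem (hEH j he)) _ (hsq j _ ((E j).inv_mem hg))
        · have hc := hcomm j i hij g hg e he
          have e1 : g * e * g⁻¹ * e⁻¹ = 1 := by
            rw [hc]
            group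
          rw [e1]
          exact S.one_mem
      · refine ⟨H.one_mem, ?_⟩
        have e1 : (1 : Y) * e * 1⁻¹ * e⁻¹ = 1 := by group
        rw [e1]
        exact S.one_mem
      · rintro g1 g2 ⟨hg1, h1⟩ ⟨hg2, h2⟩
        refine ⟨H.mul_mem hg1 hg2, ?_⟩
        have e1 : g1 * g2 * e * (g1 * g2)⁻¹ * e⁻¹
            = (g1 * (g2 * e * g2⁻¹ * e⁻¹) * g1⁻¹) * (g1 * e * g1⁻¹ * e⁻¹) := by group
        rw [e1]
        exact S.mul_mem (hSn g1 hg1 _ h2) h1
    exact key.2
  have hC : ∀ h ∈ H, h * h ∈ S := by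
    intro h hh
    have key : h ∈ H ∧ h * h ∈ S ∧ ∀ g ∈ H, g * h * g⁻¹ * h⁻¹ ∈ S := by
      rw [← hsup] at hh
      refine Subgroup.iSup_induction E
        (C := fun h => h ∈ H ∧ h * h ∈ S ∧ ∀ g ∈ H, g * h * g⁻¹ * h⁻¹ ∈ S) hh ?_ ?_ ?_
      · intro i h hh
        exact ⟨hEH i hh, hsq i h hh, fun g hg => hD i h hh g hg⟩
      · refine ⟨H.one_mem, ?_, ?_⟩
        · rw [one_mul]
          exact S.one_mem
        · intro g _
          have e1 : g * 1 * g⁻¹ * (1 : Y)⁻¹ = 1 := by group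
          rw [e1]
          exact S.one_mem
      · rintro h1 h2 ⟨hh1, hs1, hc1⟩ ⟨hh2, hs2, hc2⟩
        refine ⟨H.mul_mem hh1 hh2, ?_, ?_⟩
        · have e1 : h1 * h2 * (h1 * h2)
              = (h1 * (h2 * h1 * h2⁻¹ * h1⁻¹) * h1⁻¹) * (h1 * h1) * (h2 * h2) := by group
          rw [e1]
          exact S.mul_mem (S.mul_mem (hSn h1 hh1 _ (hc1 h2 hh2)) hs1) hs2
        · intro g hg
          have e1 : g * (h1 * h2) * g⁻¹ * (h1 * h2)⁻¹
              = (g * h1 * g⁻¹ * h1⁻¹) * (h1 * (g * h2 * g⁻¹ * h2⁻¹) * h1⁻¹) := by group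
          rw [e1]
          exact S.mul_mem (hc1 g hg) (hSn h1 hh1 _ (hc2 g hg))
    exact key.2.1
  have hodd : ∀ z ∈ H, Odd (orderOf z) → z ∈ S := by
    intro z hz ho
    obtain ⟨m, hm⟩ := ho
    have e1 : z = (z * z) ^ (m + 1) := by
      rw [← pow_two, ← pow_mul]
      have e2 : 2 * (m + 1) = orderOf z + 1 := by omega
      rw [e2, pow_succ, pow_orderOf_eq_one, one_mul]
    rw [e1]
    exact S.pow_mem (hC z hz) _
  -- the quotient by `Q`
  obtain ⟨π, hπdef⟩ : ∃ π : X →* X ⧸ Q, π = QuotientGroup.mk' Q := ⟨_, rfl⟩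
  have hπ : ∀ g : X, π g = 1 ↔ g ∈ Q := by
    intro g
    rw [hπdef, ← MonoidHom.mem_ker, QuotientGroup.ker_mk']
  have hψC : ∀ g : X, ψ g = 1 ↔ g ∈ C := by
    intro g
    rw [← MonoidHom.mem_ker, hker]
  have F1 : ∀ c ∈ C, ∀ m ∈ M, π c * π m = π m * π c := by
    intro c hc m hm
    have h1 := (hπ _).mpr (hCM c hc m hm)
    simp only [map_mul, map_inv] at h1
    calc π c * π m = (π c * π m * (π c)⁻¹ * (π m)⁻¹) * (π m * π c) := by group
      _ = π m * π c := by rw [h1, one_mul]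
  -- lifting the generators
  obtain ⟨GG, hGG⟩ : ∃ GG : Set X,
      GG = {u : X | u ∈ M ∧ (u ∈ C ∨ ∃ i, ∃ e ∈ E i, ψ u = e * e)} := ⟨_, rfl⟩
  have hGGM : Subgroup.closure GG ≤ M := by
    rw [Subgroup.closure_le]
    intro u hu
    rw [hGG] at hu
    exact hu.1
  have hlift : ∀ z ∈ S, ∃ x' ∈ Subgroup.closure GG, ψ x' = z := by
    intro z hz
    rw [hSdef] at hz
    induction hz using Subgroup.closure_induction with
    | mem s hs =>
      rw [hgens] at hs
      obtain ⟨i, e, he, rfl⟩ := hs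
      have h1 : e * e ∈ H := H.mul_mem (hEH i he) (hEH i he)
      rw [hHdef] at h1
      obtain ⟨u, hu, hue⟩ := h1
      refine ⟨u, Subgroup.subset_closure ?_, hue⟩
      rw [hGG]
      exact ⟨hu, Or.inr ⟨i, e, he, hue⟩⟩
    | one => exact ⟨1, Subgroup.one_mem _, map_one ψ⟩
    | mul a b _ _ ha hb =>
      obtain ⟨a', ha', rfl⟩ := ha
      obtain ⟨b', hb', rfl⟩ := hb
      exact ⟨a' * b', Subgroup.mul_mem _ ha' hb', map_mul ψ a' b'⟩
    | inv a _ ha =>
      obtain ⟨a', ha', rfl⟩ := ha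
      exact ⟨a'⁻¹, Subgroup.inv_mem _ ha', map_inv ψ a'⟩
  have hmemGG : ∀ x ∈ M, Odd (orderOf x) → x ∈ Subgroup.closure GG := by
    intro x hx hxo
    have h1 : ψ x ∈ H := by rw [hHdef]; exact Subgroup.mem_map_of_mem ψ hx
    have h2 : Odd (orderOf (ψ x)) := Odd.of_dvd_nat hxo (orderOf_map_dvd ψ x)
    obtain ⟨x', hx', hxx⟩ := hlift _ (hodd _ h1 h2)
    have h3 : x'⁻¹ * x ∈ C := by
      rw [← hψC, map_mul, map_inv, hxx, inv_mul_cancel]
    have h4 : x'⁻¹ * x ∈ M := M.mul_mem (M.inv_mem (hGGM hx')) hx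
    have h5 : x'⁻¹ * x ∈ Subgroup.closure GG := by
      apply Subgroup.subset_closure
      rw [hGG]
      exact ⟨h4, Or.inl h3⟩
    have h6 : x = x' * (x'⁻¹ * x) := by group
    rw [h6]
    exact Subgroup.mul_mem _ hx' h5
  -- the generators commute modulo `Q`
  have hGGcomm : ∀ u ∈ GG, ∀ v ∈ GG, π u * π v = π v * π u := by
    intro u hu v hv
    rw [hGG] at hu hv
    obtain ⟨huM, hu⟩ := hu
    obtain ⟨hvM, hv⟩ := hv
    rcases hu with huC | ⟨i, e, he, hue⟩
    · exact F1 u huC v hvM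
    rcases hv with hvC | ⟨j, e', he', hve⟩
    · exact (F1 v hvC u huM).symm
    by_cases hij : i = j
    · subst hij
      obtain ⟨φ⟩ := hiso i
      rcases sl22_sq_same (φ ⟨e, he⟩) (φ ⟨e', he'⟩) with h | h | h | h
      · have h1 : (⟨e, he⟩ * ⟨e, he⟩ : ↥(E i)) = 1 :=
          φ.injective (by rw [map_mul, h, map_one])
        have h2 : e * e = 1 := congrArg Subtype.val h1
        have huC : u ∈ C := by rw [← hψC, hue, h2]
        exact F1 u huC v hvM
      · have h1 : (⟨e', he'⟩ * ⟨e', he'⟩ : ↥(E i)) = 1 :=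
          φ.injective (by rw [map_mul, h, map_one])
        have h2 : e' * e' = 1 := congrArg Subtype.val h1
        have hvC : v ∈ C := by rw [← hψC, hve, h2]
        exact (F1 v hvC u huM).symm
      · have h1 : (⟨e', he'⟩ * ⟨e', he'⟩ : ↥(E i)) = ⟨e, he⟩ * ⟨e, he⟩ :=
          φ.injective (by rw [map_mul, map_mul, h])
        have h2 : e' * e' = e * e := congrArg Subtype.val h1
        have hwC : u⁻¹ * v ∈ C := by
          rw [← hψC, map_mul, map_inv, hue, hve, h2, inv_mul_cancel]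
        have hw := F1 _ hwC u huM
        simp only [map_mul, map_inv] at hw
        calc π u * π v = π u * (π u * ((π u)⁻¹ * π v)) := by group
          _ = π u * ((π u)⁻¹ * π v * π u) := by rw [hw]
          _ = π v * π u := by group
      · have h1 : (⟨e', he'⟩ * ⟨e', he'⟩ : ↥(E i))
            = (⟨e, he⟩ * ⟨e, he⟩) * (⟨e, he⟩ * ⟨e, he⟩) :=
          φ.injective (by simp only [map_mul]; exact h)
        have h2 : e' * e' = (e * e) * (e * e) := congrArg Subtype.val h1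
        have hwC : (u * u)⁻¹ * v ∈ C := by
          rw [← hψC, map_mul, map_inv, map_mul, hue, hve, h2, inv_mul_cancel]
        have hw := F1 _ hwC u huM
        simp only [map_mul, map_inv] at hw
        calc π u * π v = π u * π u * (π u * ((π u * π u)⁻¹ * π v)) := by group
          _ = π u * π u * ((π u * π u)⁻¹ * π v * π u) := by rw [hw]
          _ = π v * π u := by group
    · obtain ⟨φ⟩ := hiso i
      obtain ⟨B, hB⟩ := sl22_sq_inv (φ ⟨e, he⟩)
      obtain ⟨τ, hτ⟩ : ∃ τ : ↥(E i), φ τ = B := ⟨φ.symm B, φ.apply_symm_apply B⟩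
      have h1 : τ * (⟨e, he⟩ * ⟨e, he⟩) * τ⁻¹ = (⟨e, he⟩ * ⟨e, he⟩ : ↥(E i))⁻¹ := by
        apply φ.injective
        simp only [map_mul, map_inv, hτ]
        exact hB
      have h2 : (τ : Y) * (e * e) * (τ : Y)⁻¹ = (e * e)⁻¹ := congrArg Subtype.val h1
      have hτH : (τ : Y) ∈ H := hEH i τ.2
      rw [hHdef] at hτH
      obtain ⟨t, ht, htτ⟩ := hτH
      have hcube : (e * e) * (e * e) * (e * e) = 1 := by
        have h3 := sl22_sq_cube (φ ⟨e, he⟩)
        have h4 : ((⟨e, he⟩ * ⟨e, he⟩) * (⟨e, he⟩ * ⟨e, he⟩) * (⟨e, he⟩ * ⟨e, he⟩) : ↥(E i))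
            = 1 :=
          φ.injective (by simp only [map_mul, map_one]; exact h3)
        exact congrArg Subtype.val h4
      have hc := hcomm i j hij e he e' he'
      have hee' : (e * e) * (e' * e') = (e' * e') * (e * e) := by
        calc e * e * (e' * e') = e * (e * e') * e' := by group
          _ = e * (e' * e) * e' := by rw [hc]
          _ = (e * e') * (e * e') := by group
          _ = (e' * e) * (e' * e) := by rw [hc]
          _ = e' * (e * e') * e := by group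
          _ = e' * (e' * e) * e := by rw [hc]
          _ = e' * e' * (e * e) := by group
      have hcτ := hcomm i j hij (τ : Y) τ.2 e' he'
      have hτe' : (τ : Y) * (e' * e') = (e' * e') * (τ : Y) := by
        calc (τ : Y) * (e' * e') = ((τ : Y) * e') * e' := by group
          _ = (e' * (τ : Y)) * e' := by rw [hcτ]
          _ = e' * ((τ : Y) * e') := by group
          _ = e' * (e' * (τ : Y)) := by rw [hcτ]
          _ = (e' * e') * (τ : Y) := by group
      have hc1C : u * (t * u * t⁻¹) ∈ C := by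
        rw [← hψC]
        simp only [map_mul, map_inv, htτ, hue]
        rw [h2, mul_inv_cancel]
      have hc2C : v⁻¹ * (t * v * t⁻¹) ∈ C := by
        rw [← hψC]
        simp only [map_mul, map_inv, htτ, hve]
        rw [hτe']
        group
      have hc2M : v⁻¹ * (t * v * t⁻¹) ∈ M :=
        M.mul_mem (M.inv_mem hvM) (M.mul_mem (M.mul_mem ht hvM) (M.inv_mem ht))
      have hcC : u * v * u⁻¹ * v⁻¹ ∈ C := by
        rw [← hψC]
        simp only [map_mul, map_inv, hue, hve]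
        rw [hee']
        group
      have hc3C : u * u * u ∈ C := by
        rw [← hψC]
        simp only [map_mul, hue]
        exact hcube
      apply word_comm (π u) (π v) (π t) (π (u * (t * u * t⁻¹))) (π (v⁻¹ * (t * v * t⁻¹)))
        (π (u * v * u⁻¹ * v⁻¹))
      · simp only [map_mul, map_inv]
      · exact F1 _ hcC u huM
      · exact F1 _ hcC t ht
      · exact F1 _ hc1C v hvM
      · exact F1 _ hc1C _ hc2M
      · exact F1 _ hc2C u huM
      · simp only [map_mul, map_inv]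
        group
      · simp only [map_mul, map_inv]
        group
      · have h := F1 _ hc3C v hvM
        simp only [map_mul] at h
        exact h
  -- from the generators to the closure
  have hcl1 : Subgroup.closure GG ≤ (Subgroup.centralizer (π '' GG)).comap π := by
    rw [Subgroup.closure_le]
    intro u hu
    rw [SetLike.mem_coe, Subgroup.mem_comap, Subgroup.mem_centralizer_iff]
    rintro _ ⟨v, hv, rfl⟩
    exact hGGcomm v hv u hu
  have hcl2 : Subgroup.closure GG ≤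
      (Subgroup.centralizer (π '' ((Subgroup.closure GG : Subgroup X) : Set X))).comap π := by
    rw [Subgroup.closure_le]
    intro u hu
    rw [SetLike.mem_coe, Subgroup.mem_comap, Subgroup.mem_centralizer_iff]
    rintro _ ⟨z, hz, rfl⟩
    have h1 := hcl1 hz
    rw [Subgroup.mem_comap, Subgroup.mem_centralizer_iff] at h1
    exact (h1 (π u) ⟨u, hu, rfl⟩).symm
  have hxG := hmemGG x hx hxo
  have hyG := hmemGG y hy hyo
  have h1 := hcl2 hyG
  rw [Subgroup.mem_comap, Subgroup.mem_centralizer_iff] at h1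
  have h2 : π x * π y = π y * π x := h1 (π x) ⟨x, hxG, rfl⟩
  rw [← hπ]
  simp only [map_mul, map_inv]
  rw [h2]
  group

/-- `[C, J(X)] ≤ Q`, elementwise. -/
theorem comm_CJ {X : Type u} [Group X] [Finite X] (T C Q : Subgroup X)
    (hT : IsPGroup 2 ↥T) (hTi : Odd T.index) (hCn : C.Normal) (hQn : Q.Normal)
    (hTC : T ⊓ C ≤ Q) (hCT : C ≤ Subgroup.normalizer (T : Set X)) :
    ∀ c ∈ C, ∀ m ∈ thompsonSubgroup 2 X, c * m * c⁻¹ * m⁻¹ ∈ Q := by
  haveI : Fact (Nat.Prime 2) := ⟨Nat.prime_two⟩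
  obtain ⟨π, hπdef⟩ : ∃ π : X →* X ⧸ Q, π = QuotientGroup.mk' Q := ⟨_, rfl⟩
  have hπ : ∀ g : X, π g = 1 ↔ g ∈ Q := by
    intro g
    rw [hπdef, ← MonoidHom.mem_ker, QuotientGroup.ker_mk']
  have h1 : ∀ c ∈ C, ∀ t ∈ T, c * t * c⁻¹ * t⁻¹ ∈ Q := by
    intro c hc t ht
    apply hTC
    refine Subgroup.mem_inf.mpr ⟨?_, ?_⟩
    · exact T.mul_mem ((Subgroup.mem_normalizer_iff.mp (hCT hc) t).mp ht) (T.inv_mem ht)
    · have e : c * t * c⁻¹ * t⁻¹ = c * (t * c⁻¹ * t⁻¹) := by group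
      rw [e]
      exact C.mul_mem hc (hCn.conj_mem c⁻¹ (C.inv_mem hc) t)
  have h2 : ∀ g : X, ∀ c ∈ C, ∀ t ∈ T,
      c * (g * t * g⁻¹) * c⁻¹ * (g * t * g⁻¹)⁻¹ ∈ Q := by
    intro g c hc t ht
    have hc' : g⁻¹ * c * g⁻¹⁻¹ ∈ C := hCn.conj_mem c hc g⁻¹
    have h := h1 _ hc' t ht
    have h' := hQn.conj_mem _ h g
    have e : g * (g⁻¹ * c * g⁻¹⁻¹ * t * (g⁻¹ * c * g⁻¹⁻¹)⁻¹ * t⁻¹) * g⁻¹
        = c * (g * t * g⁻¹) * c⁻¹ * (g * t * g⁻¹)⁻¹ := by group
    rw [e] at h'
    exact h'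
  obtain ⟨Z, hZdef⟩ : ∃ Z : Subgroup X,
      Z = (Subgroup.centralizer (π '' (C : Set X))).comap π := ⟨_, rfl⟩
  have hZmem : ∀ m : X, m ∈ Z ↔ ∀ c ∈ C, c * m * c⁻¹ * m⁻¹ ∈ Q := by
    intro m
    rw [hZdef, Subgroup.mem_comap, Subgroup.mem_centralizer_iff]
    constructor
    · intro h c hc
      have h3 := h (π c) ⟨c, hc, rfl⟩
      rw [← hπ]
      simp only [map_mul, map_inv]
      rw [h3]
      group
    · rintro h _ ⟨c, hc, rfl⟩
      have h3 := (hπ _).mpr (h c hc)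
      simp only [map_mul, map_inv] at h3
      calc π c * π m = (π c * π m * (π c)⁻¹ * (π m)⁻¹) * (π m * π c) := by group
        _ = π m * π c := by rw [h3, one_mul]
  have hTi' : ¬ 2 ∣ T.index := by
    rw [← even_iff_two_dvd, Nat.not_even_iff_odd]
    exact hTi
  have hJZ : thompsonSubgroup 2 X ≤ Z := by
    unfold Cfsg.thompsonSubgroup
    apply sSup_le
    intro A hA
    have hA2 : IsPGroup 2 ↥A := by
      intro a
      refine ⟨1, ?_⟩
      apply Subtype.ext
      rw [pow_one, Subgroup.coe_pow, Subgroup.coe_one]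
      exact hA.1.2 a a.2
    obtain ⟨R, hAR⟩ := hA2.exists_le_sylow
    obtain ⟨g, hg⟩ := MulAction.exists_smul_eq X (hT.toSylow hTi') R
    intro a ha
    have haR : a ∈ (R : Subgroup X) := hAR ha
    rw [← hg, Sylow.coe_subgroup_smul, Subgroup.mem_pointwise_smul_iff_inv_smul_mem] at haR
    have haT : g⁻¹ * a * g ∈ T := by
      have h3 : (MulAut.conj g)⁻¹ • a = g⁻¹ * a * g := by
        rw [← map_inv, MulAut.smul_def, MulAut.conj_apply, inv_inv]
      rw [h3] at haR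
      exact haR
    rw [hZmem]
    intro c hc
    have h4 := h2 g c hc _ haT
    have e : g * (g⁻¹ * a * g) * g⁻¹ = a := by group
    rw [e] at h4
    exact h4
  intro c hc m hm
  exact (hZmem m).mp (hJZ hm) c hc

/-- SP-CM. -/
theorem cm : StCM.{u} := by
  intro X _ _ T C Q hT hTi hCn hQn hTC hCT
  rw [Subgroup.commutator_le]
  intro c hc m hm
  rw [commutatorElement_def]
  exact comm_CJ T C Q hT hTi hCn hQn hTC hCT c hc m hm

/-- The elements of odd order of `J(X)` commute modulo `Q` (sharpening of SN-GL). -/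
theorem oddq {X : Type u} [Group X] [Finite X] (V T Q : Subgroup X) [V.Normal] [Q.Normal]
    (hV : IsElementaryAbelian 2 V) (hsep : IsPSolvable 2 X)
    (hO : pCore 2 (X ⧸ Subgroup.centralizer (V : Set X)) = ⊥)
    (hT : IsPGroup 2 ↥T) (hTi : Odd T.index)
    (hTC : T ⊓ Subgroup.centralizer (V : Set X) ≤ Q)
    (hCT : Subgroup.centralizer (V : Set X) ≤ Subgroup.normalizer (T : Set X)) :
    ∀ x ∈ thompsonSubgroup 2 X, ∀ y ∈ thompsonSubgroup 2 X, Odd (orderOf x) →
      Odd (orderOf y) → x * y * x⁻¹ * y⁻¹ ∈ Q := by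
  intro x hx y hy hox hoy
  haveI : Fact (Nat.Prime 2) := ⟨Nat.prime_two⟩
  haveI hJn := thompsonSubgroup_normal 2 X
  have hCn : (Subgroup.centralizer (V : Set X)).Normal := inferInstance
  have hCM := comm_CJ T (Subgroup.centralizer (V : Set X)) Q hT hTi hCn inferInstance hTC hCT
  have hV' := Vh_elemAb V hV
  have hHV : (thompsonSubgroup 2 X).map (psi V) ≤
      Subgroup.normalizer ((Vh V : Subgroup (Hol V)) : Set (Hol V)) := by
    haveI := Vh_normal V
    rw [Subgroup.normalizer_eq_top]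
    exact le_top
  have hHR : (thompsonSubgroup 2 X).map (psi V) ≤ (psi V).range := by
    rintro _ ⟨j, -, rfl⟩
    exact ⟨j, rfl⟩
  have hf : (thompsonSubgroup 2 X).map (psi V) ⊓
      Subgroup.centralizer ((Vh V : Subgroup (Hol V)) : Set (Hol V)) = ⊥ := by
    rw [eq_bot_iff, ← range_faithful V]
    exact inf_le_inf_right _ hHR
  have hnorm : (psi V).range ≤
      Subgroup.normalizer (((thompsonSubgroup 2 X).map (psi V) : Subgroup (Hol V)) :
        Set (Hol V)) := by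
    rintro _ ⟨g, rfl⟩
    rw [Subgroup.mem_normalizer_iff]
    intro h
    constructor
    · rintro ⟨j, hj, rfl⟩
      refine ⟨g * j * g⁻¹, hJn.conj_mem j hj g, ?_⟩
      simp
    · rintro ⟨j, hj, hjh⟩
      refine ⟨g⁻¹ * j * g, ?_, ?_⟩
      · have := hJn.conj_mem j hj g⁻¹
        simpa using this
      · rw [map_mul, map_mul, hjh, map_inv]
        group
  have hS1 := hS1_of_normal (p := 2) (psi V).range ((thompsonSubgroup 2 X).map (psi V)) hHR
    hnorm (range_isPSolvable V hsep) (range_pCore_eq_bot V hO)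
  have hS3 : (thompsonSubgroup 2 X).map (psi V) = ⨆ A : {A : Subgroup (Hol V) //
      A ≤ (thompsonSubgroup 2 X).map (psi V) ∧ IsBestOffenderOn 2 (Vh V) A},
      (A : Subgroup (Hol V)) := by
    apply le_antisymm
    · conv_lhs => unfold Cfsg.thompsonSubgroup
      rw [Subgroup.map_le_iff_le_comap]
      apply sSup_le
      intro A hA
      rw [← Subgroup.map_le_iff_le_comap]
      exact le_iSup (fun A : {A : Subgroup (Hol V) //
        A ≤ (thompsonSubgroup 2 X).map (psi V) ∧ IsBestOffenderOn 2 (Vh V) A} =>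
          (A : Subgroup (Hol V)))
        ⟨A.map (psi V), Subgroup.map_mono (le_sSup hA), bestOffender_map V hV hA⟩
    · exact iSup_le fun A => A.2.1
  by_cases hH1 : (thompsonSubgroup 2 X).map (psi V) = ⊥
  · have hxC : x ∈ Subgroup.centralizer (V : Set X) := by
      rw [← psi_ker, MonoidHom.mem_ker]
      have hxH : psi V x ∈ (thompsonSubgroup 2 X).map (psi V) := Subgroup.mem_map_of_mem _ hx
      rw [hH1, Subgroup.mem_bot] at hxH
      exact hxH
    exact hCM x hxC y hy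
  · obtain ⟨-, hE, hind, hsup, -, -⟩ :=
      Cfsg.Agent.S0617.result _ _ hV' hHV hf hS1 hS3 hH1
    exact oddq_core (psi V) (Subgroup.centralizer (V : Set X)) Q (thompsonSubgroup 2 X)
      (psi_ker V) hCM _ (fun i => (hE i).1) (fun i => (hE i).2.1) hind hsup x hx y hy hox hoy

/-- SP-GLP. -/
theorem glp : StGLP.{u} := by
  intro X _ _ T V _ hV hsep hT hTi hQC hCT x hx y hy hox hoy
  obtain ⟨hO, hTC⟩ := Cfsg.Agent.H43.Sn.red T V hT hTi hQC hCT
  haveI : (pCore 2 X).Normal := Cfsg.Agent.H14.pCore_normal 2 X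
  exact oddq V T (pCore 2 X) hV hsep hO hT hTi hTC hCT x hx y hy hox hoy

example : Cfsg.Agent.H52.Sn.StGLP.{u} := glp
example : Cfsg.Agent.H52.Sn.StCM.{u} := cm

end Cfsg.Agent.H68.Sp

#print axioms Cfsg.Agent.H68.Sp.glp
#print axioms Cfsg.Agent.H68.Sp.cm
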