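import Mathlib
import Cfsg.Prelude.Def_LieExceptional
import Cfsg.Prelude.Def_Characters
import Cfsg.Prelude.Def_ParabolicCharacters
import Cfsg.Agent.H8Exch
import Cfsg.Agent.H8BN
import Cfsg.Agent.H8BN2

/-!
# helper68: shared definitions for the Steinberg character of a finite group with a (B,N)-pair

* `Red f X Y` : the `(X, Y)`-reduced elements of an exchange system `(W, f)` (no left descent in `X`,
  no right descent in `Y`); they are the distinguished double coset representatives of `W_X \ W / W_Y`.
* `par P X` : the standard parabolic subgroup of a (B,N)-pair attached to a set `X` of distinguished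
  generators (as a subset of the subtype `P.S`).
* `BInt P n` : `B ∩ n B n⁻¹`.
-/

set_option autoImplicit false

namespace Cfsg.Agent.H68.St

open Cfsg Cfsg.H8Exch Cfsg.H8BN

section W

variable {W : Type*} [Group W] {ι : Type*}

/-- the `(X, Y)`-reduced elements: no left descent in `X`, no right descent in `Y` -/
def Red (f : ι → W) (X Y : Set ι) : Set W :=
  {w | (∀ i ∈ X, len f w < len f (f i * w)) ∧ (∀ j ∈ Y, len f w < len f (w * f j))}

theorem mem_Red {f : ι → W} {X Y : Set ι} {w : W} :
    w ∈ Red f X Y ↔ (∀ i ∈ X, len f w < len f (f i * w)) ∧ (∀ j ∈ Y, len f w < len f (w * f j)) :=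
  Iff.rfl

end W

section BN

variable {G : Type*} [Group G] (P : BNPair G)

/-- the standard parabolic subgroup attached to a set of distinguished generators -/
def par (X : Set P.S) : Subgroup G := P.parabolic (Subtype.val '' X)

/-- `B ∩ n B n⁻¹` -/
def BInt (n : G) : Subgroup G := P.B ⊓ P.B.map (MulAut.conj n).toMonoidHom

theorem mem_BInt {n g : G} : g ∈ BInt P n ↔ g ∈ P.B ∧ n⁻¹ * g * n ∈ P.B := by
  unfold BInt
  rw [Subgroup.mem_inf, Subgroup.mem_map]
  constructor
  · rintro ⟨h1, x, hx, rfl⟩
    refine ⟨h1, ?_⟩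
    simp only [MulEquiv.coe_toMonoidHom, MulAut.conj_apply]
    have : n⁻¹ * (n * x * n⁻¹) * n = x := by group
    rw [this]; exact hx
  · rintro ⟨h1, h2⟩
    refine ⟨h1, n⁻¹ * g * n, h2, ?_⟩
    simp only [MulEquiv.coe_toMonoidHom, MulAut.conj_apply]
    group

end BN

end Cfsg.Agent.H68.St
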