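import Mathlib
import Cfsg.Agent.H83.AbIdxDefs
import Cfsg.Agent.H4.PaQb

/-!
# S4463-SIMPLE4 (helper68, for helper83)

A finite simple group all of whose irreducible character degrees are at most `4` is abelian
(Burnside's argument at an element of odd class size: characters of degree `1, 2, 4` other than
the trivial one vanish there, so column orthogonality gives `1 + 3 β = 0` with `β` an algebraic
integer).
-/

set_option autoImplicit false
set_option linter.style.haveILetI false

namespace Cfsg.Agent.H68.AbIdx

open Cfsg Cfsg.Agent.H83.AbIdx Cfsg.Agent.H4 Module Representation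

open scoped ComplexConjugate

universe u

/-- A nontrivial finite group has a nonidentity element of odd class size. -/
theorem exists_odd_class (X : Type u) [Group X] [Finite X] [Nontrivial X] :
    ∃ g : X, g ≠ 1 ∧ ¬ 2 ∣ (Subgroup.centralizer ({g} : Set X)).index := by
  haveI : Fact (Nat.Prime 2) := ⟨Nat.prime_two⟩
  obtain ⟨P⟩ : Nonempty (Sylow 2 X) := inferInstance
  have hkey : ∃ z : X, z ≠ 1 ∧ (P : Subgroup X) ≤ Subgroup.centralizer ({z} : Set X) := by
    by_cases hP : (P : Subgroup X) = ⊥
    · obtain ⟨z, hz⟩ := exists_ne (1 : X)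
      exact ⟨z, hz, by rw [hP]; exact bot_le⟩
    · haveI : Nontrivial (P : Subgroup X) := (Subgroup.nontrivial_iff_ne_bot _).mpr hP
      have hpg : IsPGroup 2 (P : Subgroup X) := P.isPGroup'
      haveI := hpg.center_nontrivial
      obtain ⟨z, hz⟩ := exists_ne (1 : Subgroup.center (P : Subgroup X))
      refine ⟨((z : (P : Subgroup X)) : X), ?_, ?_⟩
      · intro h
        apply hz
        apply Subtype.ext
        apply Subtype.ext
        simpa using h
      · intro x hx
        rw [Subgroup.mem_centralizer_iff]
        intro y hy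
        rw [Set.mem_singleton_iff] at hy
        subst hy
        have h1 := Subgroup.mem_center_iff.mp z.2 ⟨x, hx⟩
        have h2 : x * ((z : (P : Subgroup X)) : X) = ((z : (P : Subgroup X)) : X) * x := by
          have h3 := Subtype.ext_iff.mp h1
          simpa using h3
        exact h2.symm
  obtain ⟨z, hz, hle⟩ := hkey
  refine ⟨z, hz, fun h2 => ?_⟩
  exact P.not_dvd_index (dvd_trans h2 (Subgroup.index_dvd_of_le hle))

theorem simple4_aux (X : Type u) [Group X] [Finite X] [IsSimpleGroup X]
    (hdeg : ∀ χ : IrrCharacter X, charDegree χ.1 ≤ 4) (hcomm : ¬ ∀ a b : X, a * b = b * a) :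
    False := by
  classical
  haveI := Fintype.ofFinite X
  letI := fintypeIrr X
  have hsimple : ∀ N : Subgroup X, N.Normal → N = ⊥ ∨ N = ⊤ :=
    fun N hN => IsSimpleGroup.eq_bot_or_eq_top_of_normal N hN
  have hcenter : ∀ g : X, (∀ x : X, g * x = x * g) → g = 1 := by
    intro z hz
    rcases hsimple (Subgroup.center X) inferInstance with h | h
    · have : z ∈ Subgroup.center X := Subgroup.mem_center_iff.mpr (fun x => (hz x).symm)
      rw [h] at this
      exact Subgroup.mem_bot.mp this
    · exfalso
      apply hcomm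
      intro a b
      have : a ∈ Subgroup.center X := h ▸ Subgroup.mem_top a
      exact (Subgroup.mem_center_iff.mp this b).symm
  obtain ⟨g, hg, hodd⟩ := exists_odd_class X
  have hcol := column_orthogonality (G := X) g 1
  have hempty : IsEmpty {c : X // c * g * c⁻¹ = 1} := ⟨fun ⟨c, hc⟩ => hg (by
    have := congrArg (fun t => c⁻¹ * t * c) hc
    simpa [mul_assoc] using this)⟩
  rw [Nat.card_of_isEmpty, Nat.cast_zero, finsum_irr_eq_sum] at hcol
  have hterm : ∀ χ : IrrCharacter X, χ ≠ trivialIrr X → ∃ β : ℂ, IsIntegral ℤ β ∧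
      (χ : X → ℂ) g * conj ((χ : X → ℂ) 1) = 3 * β := by
    intro χ hχ
    obtain ⟨n, ρ, hρ, hρχ⟩ := χ.2
    haveI := hρ
    have h1 : (χ : X → ℂ) 1 = n := by
      rw [← hρχ, Representation.char_one]; simp
    have hn4 : n ≤ 4 := by
      have h2 := hdeg χ
      unfold charDegree at h2
      rw [h1, Complex.natCast_re, Nat.floor_natCast] at h2
      exact h2
    rw [h1, Complex.conj_natCast]
    by_cases hn3 : n = 3
    · subst hn3
      refine ⟨(χ : X → ℂ) g, by rw [← hρχ]; exact character_isIntegral ρ g, ?_⟩
      push_cast; ring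
    · refine ⟨0, isIntegral_zero, ?_⟩
      by_cases hn0 : n = 0
      · subst hn0; simp
      have hcop : Nat.Coprime (finrank ℂ (Fin n → ℂ))
          (Subgroup.centralizer ({g} : Set X)).index := by
        simp only [Module.finrank_fin_fun]
        have hodd' : Nat.Coprime 2 (Subgroup.centralizer ({g} : Set X)).index :=
          (Nat.Prime.coprime_iff_not_dvd Nat.prime_two).mpr hodd
        have hn : n = 1 ∨ n = 2 ∨ n = 4 := by omega
        rcases hn with rfl | rfl | rfl
        · exact Nat.coprime_one_left _
        · exact hodd'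
        · have : (4 : ℕ) = 2 ^ 2 := by norm_num
          rw [this]
          exact Nat.Coprime.pow_left 2 hodd'
      rcases character_eq_zero_or_norm_eq_of_coprime ρ g hcop with h0 | h0
      · rw [← hρχ, h0]; simp
      · exfalso
        obtain ⟨ω, hω⟩ := (character_norm_eq_iff ρ g).mp h0
        refine not_scalar_of_simple hsimple hcenter ρ ?_ g hg ω hω
        intro h2
        apply hχ
        apply Subtype.ext
        rw [← hρχ, h2]
        rfl
  choose! β hβint hβ using hterm
  rw [← Finset.add_sum_erase Finset.univ _ (Finset.mem_univ (trivialIrr X))] at hcol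
  have h1 : ((trivialIrr X : IrrCharacter X) : X → ℂ) g *
      conj (((trivialIrr X : IrrCharacter X) : X → ℂ) 1) = 1 := by simp [trivialIrr]
  rw [h1, Finset.sum_congr rfl (fun χ hχ => hβ χ (Finset.ne_of_mem_erase hχ)),
    ← Finset.mul_sum] at hcol
  set B := ∑ χ ∈ Finset.univ.erase (trivialIrr X), β χ with hBdef
  have hBint : IsIntegral ℤ B :=
    IsIntegral.sum _ (fun χ hχ => hβint χ (Finset.ne_of_mem_erase hχ))
  have hB : B = ((-1 / 3 : ℚ) : ℂ) := by
    push_cast
    linear_combination (1 / 3 : ℂ) * hcol
  rw [hB] at hBint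
  obtain ⟨y, hy⟩ := exists_int_of_isIntegral_ratCast _ hBint
  have hpy : (3 : ℤ) * y = -1 := by
    have : (3 : ℚ) * y = -1 := by rw [hy]; norm_num
    exact_mod_cast this
  omega

/-- S4463-SIMPLE4: a simple group with all irreducible character degrees at most `4` is
abelian. -/
theorem simple4 : StmtSimple4.{u} := by
  intro X _ _ _ hdeg
  by_contra hcomm
  exact simple4_aux X hdeg hcomm

example : Cfsg.Agent.H83.AbIdx.StmtSimple4.{u} := simple4

end Cfsg.Agent.H68.AbIdx
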