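import Mathlib
import Cfsg.Agent.H2.BrDefs
import Cfsg.Agent.H78.DefectZero
import Cfsg.Agent.H32.LinAb
import Cfsg.Agent.H4.PaQb
import Cfsg.Agent.H4.Chars

/-!
# S4501-CENT4 (helper68, for helper2's team project S4501)

An irreducible character of degree `4` of a simple group of order `4 g₀` (`g₀` odd) forces the
centralizer of a four-group to have no nontrivial element of odd order.
-/

set_option autoImplicit false
set_option linter.unusedSectionVars false
set_option linter.style.haveILetI false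

namespace Cfsg.Agent.H68.Br

open Cfsg Cfsg.Agent.H2.Br
open scoped ComplexConjugate

universe u

/-- The product of an element of odd order and a commuting involution has even order. -/
theorem two_dvd_orderOf_mul {G : Type*} [Group G] (x w : G) (hc : x * w = w * x)
    (hw : orderOf w = 2) (hx : ¬ 2 ∣ orderOf x) : 2 ∣ orderOf (x * w) := by
  by_contra h
  have hodd : Odd (orderOf (x * w)) := by
    rw [Nat.odd_iff]; omega
  have h1 : (x * w) ^ orderOf (x * w) = 1 := pow_orderOf_eq_one _
  have hcomm : Commute x w := hc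
  rw [hcomm.mul_pow] at h1
  have hwm : w ^ orderOf (x * w) = w := by
    obtain ⟨k, hk⟩ := hodd
    have hw2 : w ^ 2 = 1 := by rw [← hw]; exact pow_orderOf_eq_one w
    rw [hk, pow_succ, pow_mul, hw2, one_pow, one_mul]
  rw [hwm] at h1
  have hw' : w = (x ^ orderOf (x * w))⁻¹ := eq_inv_of_mul_eq_one_right h1
  have hmem : w ∈ Subgroup.zpowers x := by
    rw [hw']
    exact Subgroup.inv_mem _ (Subgroup.pow_mem _ (Subgroup.mem_zpowers x) _)
  have hdvd : orderOf w ∣ orderOf x := orderOf_dvd_of_mem_zpowers hmem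
  rw [hw] at hdvd
  exact hx hdvd

/-- For a character `θ` of a finite commutative group, `∑ |θ a|² ≥ θ(1) · |A|`. -/
theorem sum_normSq_ge_of_comm {A : Type u} [Group A] [Fintype A] (hA : ∀ a b : A, a * b = b * a)
    {θ : A → ℂ} (hθ : IsCharacter A θ) (n : ℕ) (hn : θ 1 = n) :
    (n : ℝ) * (Nat.card A : ℝ) ≤ ∑ a : A, ‖θ a‖ ^ 2 := by
  classical
  obtain ⟨m, hm⟩ := Cfsg.Agent.H4.isCharacter_iff.mp hθ
  letI := Cfsg.Agent.H4.fintypeIrr A
  have hm' : θ = ∑ ψ : IrrCharacter A, (m ψ : ℂ) • (ψ : A → ℂ) := by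
    rw [hm, Cfsg.Agent.H4.finsum_irr_eq_sum]
  have h1 : ∀ ψ : IrrCharacter A, classInner θ ψ.1 = m ψ := by
    intro ψ
    rw [hm]
    exact Cfsg.Agent.H4.classInner_finsum_irr (fun χ => (m χ : ℂ)) ψ
  have h1' : ∀ ψ : IrrCharacter A, classInner ψ.1 θ = m ψ := by
    intro ψ
    rw [← Cfsg.Agent.H4.classInner_conj_symm, h1, Complex.conj_natCast]
  have h2 : classInner θ θ = ∑ ψ : IrrCharacter A, ((m ψ : ℂ)) ^ 2 := by
    conv_lhs => arg 1; rw [hm']
    rw [Cfsg.Agent.H4.classInner_sum_left]
    refine Finset.sum_congr rfl fun ψ _ => ?_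
    rw [Cfsg.Agent.H4.classInner_smul_left, h1', sq]
  have h3 : (n : ℂ) = ∑ ψ : IrrCharacter A, (m ψ : ℂ) := by
    rw [← hn]
    conv_lhs => rw [hm']
    rw [Finset.sum_apply]
    refine Finset.sum_congr rfl fun ψ _ => ?_
    rw [Pi.smul_apply, (Cfsg.Agent.H32.irr_linear_of_comm hA ψ.2).1, smul_eq_mul, mul_one]
  have h3' : n = ∑ ψ : IrrCharacter A, m ψ := by
    have : ((n : ℕ) : ℂ) = ((∑ ψ : IrrCharacter A, m ψ : ℕ) : ℂ) := by
      rw [h3]; push_cast; rfl
    exact_mod_cast this
  have h4 : classInner θ θ = (Nat.card A : ℂ)⁻¹ * ((∑ a : A, ‖θ a‖ ^ 2 : ℝ) : ℂ) := by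
    unfold classInner
    congr 1
    push_cast
    refine Finset.sum_congr rfl fun a _ => ?_
    rw [Complex.mul_conj']
  have hcard : (Nat.card A : ℂ) ≠ 0 := by exact_mod_cast Nat.card_pos.ne'
  have h5 : ((∑ a : A, ‖θ a‖ ^ 2 : ℝ) : ℂ) =
      (((Nat.card A : ℝ) * ((∑ ψ : IrrCharacter A, (m ψ) ^ 2 : ℕ) : ℝ) : ℝ) : ℂ) := by
    have : ((∑ a : A, ‖θ a‖ ^ 2 : ℝ) : ℂ) = (Nat.card A : ℂ) * classInner θ θ := by
      rw [h4, ← mul_assoc, mul_inv_cancel₀ hcard, one_mul]
    rw [this, h2]
    push_cast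
    rfl
  have h6 : (∑ a : A, ‖θ a‖ ^ 2 : ℝ) =
      (Nat.card A : ℝ) * ((∑ ψ : IrrCharacter A, (m ψ) ^ 2 : ℕ) : ℝ) := by
    exact_mod_cast h5
  rw [h6, mul_comm]
  have h7 : n ≤ ∑ ψ : IrrCharacter A, (m ψ) ^ 2 := by
    rw [h3']
    refine Finset.sum_le_sum fun ψ _ => ?_
    exact Nat.le_self_pow (by norm_num) _
  have h8 : (n : ℝ) ≤ ((∑ ψ : IrrCharacter A, (m ψ) ^ 2 : ℕ) : ℝ) := by exact_mod_cast h7
  exact mul_le_mul_of_nonneg_left h8 (Nat.cast_nonneg _)

/-- S4501-CENT4. -/
theorem cent4 : StmtCent4.{u} := by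
  intro G _ _ _ hna g₀ hg₀ hcard χ hdeg J t y hJ ht hJt hcomm hy hyJ hyt
  classical
  letI : Fintype G := Fintype.ofFinite G
  by_contra hy1
  obtain ⟨n, ρ, hρ, hχ⟩ := χ.2
  haveI := hρ
  have hfin : Module.finrank ℂ (Fin n → ℂ) = n := by simp
  have hχ1 : (χ : G → ℂ) 1 = n := by
    rw [← hχ, Representation.char_one, hfin]
  have hn : n = 4 := by
    have : charDegree (χ : G → ℂ) = n := by
      unfold charDegree
      rw [hχ1, Complex.natCast_re, Nat.floor_natCast]
    rw [← this, hdeg]
  subst hn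
  -- vanishing on elements of even order
  have hvan : ∀ x : G, 2 ∣ orderOf x → (χ : G → ℂ) x = 0 := by
    intro x hx
    refine Cfsg.Agent.H78.irr_defect_zero_vanish 2 Nat.prime_two χ ?_ x hx
    rw [hcard, hdeg, Nat.mul_div_cancel_left _ (by norm_num : 0 < 4)]
    exact hg₀.not_two_dvd_nat
  have hle : ∀ x : G, ‖(χ : G → ℂ) x‖ ≤ 4 := by
    intro x
    have := Cfsg.Agent.H4.character_norm_le ρ x
    rw [hfin, hχ] at this
    exact_mod_cast this
  set F : G → ℝ := fun g => ‖(χ : G → ℂ) g‖ ^ 2 with hF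
  have hF0 : ∀ x : G, 2 ∣ orderOf x → F x = 0 := by
    intro x hx
    simp only [hF, hvan x hx, norm_zero]
    norm_num
  have hF16 : ∀ x : G, F x ≤ 16 := by
    intro x
    have h0 : 0 ≤ ‖(χ : G → ℂ) x‖ := norm_nonneg _
    have := hle x
    simp only [hF]
    nlinarith
  have hFnn : ∀ x : G, 0 ≤ F x := fun x => by simp only [hF]; positivity
  -- the involution `J * t`
  have hJ2 : J * J = 1 := by
    have := pow_orderOf_eq_one J
    rwa [hJ, pow_two] at this
  have ht2 : t * t = 1 := by
    have := pow_orderOf_eq_one t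
    rwa [ht, pow_two] at this
  have hJt2 : orderOf (J * t) = 2 := by
    refine orderOf_eq_prime ?_ ?_
    · rw [pow_two]
      calc J * t * (J * t) = J * (t * J) * t := by group
        _ = J * (J * t) * t := by rw [hcomm]
        _ = (J * J) * (t * t) := by group
        _ = 1 := by rw [hJ2, ht2, one_mul]
    · intro h
      apply hJt
      calc J = J * (t * t) := by rw [ht2, mul_one]
        _ = (J * t) * t := by group
        _ = t := by rw [h, one_mul]
  -- the pointwise bound
  have hbr : ∀ g : G, g * J = J * g → g * t = t * g →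
      F g + F (g * J) + F (g * t) + F (g * (J * t)) ≤ 16 := by
    intro g hgJ hgt
    have hgJt : g * (J * t) = (J * t) * g := by
      calc g * (J * t) = (g * J) * t := by group
        _ = J * (g * t) := by rw [hgJ]; group
        _ = (J * t) * g := by rw [hgt]; group
    by_cases h0 : 2 ∣ orderOf g
    · by_cases h1 : 2 ∣ orderOf (g * J)
      · by_cases h2 : 2 ∣ orderOf (g * t)
        · rw [hF0 g h0, hF0 _ h1, hF0 _ h2]
          have := hF16 (g * (J * t))
          linarith
        · have e3 : g * (J * t) = (g * t) * J := by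
            calc g * (J * t) = g * (t * J) := by rw [hcomm]
              _ = (g * t) * J := by group
          have c3 : (g * t) * J = J * (g * t) := by
            calc (g * t) * J = g * (t * J) := by group
              _ = g * (J * t) := by rw [hcomm]
              _ = (g * J) * t := by group
              _ = J * (g * t) := by rw [hgJ]; group
          have h3 : 2 ∣ orderOf (g * (J * t)) := by
            rw [e3]; exact two_dvd_orderOf_mul _ _ c3 hJ h2
          rw [hF0 g h0, hF0 _ h1, hF0 _ h3]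
          have := hF16 (g * t)
          linarith
      · have e2 : g * t = (g * J) * (J * t) := by
          calc g * t = g * ((J * J) * t) := by rw [hJ2, one_mul]
            _ = (g * J) * (J * t) := by group
        have c2 : (g * J) * (J * t) = (J * t) * (g * J) := by
          calc (g * J) * (J * t) = g * (J * J) * t := by group
            _ = g * t := by rw [hJ2, mul_one]
            _ = t * g := hgt
            _ = t * (J * J) * g := by rw [hJ2, mul_one]
            _ = (t * J) * (J * g) := by group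
            _ = (J * t) * (g * J) := by rw [hcomm, hgJ]
        have e3 : g * (J * t) = (g * J) * t := by group
        have c3 : (g * J) * t = t * (g * J) := by
          calc (g * J) * t = g * (J * t) := by group
            _ = g * (t * J) := by rw [hcomm]
            _ = (g * t) * J := by group
            _ = t * (g * J) := by rw [hgt]; group
        have h2 : 2 ∣ orderOf (g * t) := by
          rw [e2]; exact two_dvd_orderOf_mul _ _ c2 hJt2 h1
        have h3 : 2 ∣ orderOf (g * (J * t)) := by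
          rw [e3]; exact two_dvd_orderOf_mul _ _ c3 ht h1
        rw [hF0 g h0, hF0 _ h2, hF0 _ h3]
        have := hF16 (g * J)
        linarith
    · have h1 : 2 ∣ orderOf (g * J) := two_dvd_orderOf_mul _ _ hgJ hJ h0
      have h2 : 2 ∣ orderOf (g * t) := two_dvd_orderOf_mul _ _ hgt ht h0
      have h3 : 2 ∣ orderOf (g * (J * t)) := two_dvd_orderOf_mul _ _ hgJt hJt2 h0
      rw [hF0 _ h1, hF0 _ h2, hF0 _ h3]
      have := hF16 g
      linarith
  -- the abelian subgroup
  have hSc : ∀ a ∈ ({J, t, y} : Set G), ∀ b ∈ ({J, t, y} : Set G), a * b = b * a := by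
    intro a ha b hb
    simp only [Set.mem_insert_iff, Set.mem_singleton_iff] at ha hb
    rcases ha with rfl | rfl | rfl <;> rcases hb with rfl | rfl | rfl <;>
      first | rfl | exact hcomm | exact hcomm.symm | exact hyJ | exact hyJ.symm | exact hyt |
        exact hyt.symm
  set A : Subgroup G := Subgroup.closure {J, t, y} with hAdef
  have hAc : IsMulCommutative A := Subgroup.isMulCommutative_closure hSc
  have hAcomm : ∀ a b : A, a * b = b * a := fun a b => hAc.is_comm.comm a b
  have hJA : J ∈ A := Subgroup.subset_closure (by simp)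
  have htA : t ∈ A := Subgroup.subset_closure (by simp)
  have hyA : y ∈ A := Subgroup.subset_closure (by simp)
  have hlow : ((4 : ℕ) : ℝ) * (Nat.card A : ℝ) ≤ ∑ a : A, F a := by
    have := sum_normSq_ge_of_comm hAcomm
      (Cfsg.Agent.H4.isCharacter_restrict A (Cfsg.Agent.H4.isCharacter_of_isIrrCharacter χ.2)) 4
      (by show (χ : G → ℂ) ((1 : A) : G) = ((4 : ℕ) : ℂ); rw [Subgroup.coe_one, hχ1])
    exact this
  have htr : ∀ v : A, ∑ a : A, F ((a : G) * (v : G)) = ∑ a : A, F a := by
    intro v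
    exact Fintype.sum_equiv (Equiv.mulRight v) _ _ (fun a => rfl)
  have hAcomm' : ∀ a : A, ∀ v : G, v ∈ A → (a : G) * v = v * (a : G) := by
    intro a v hv
    have := hAcomm a ⟨v, hv⟩
    exact congrArg Subtype.val this
  have hsum : ∑ a : A, (F (a : G) + F ((a : G) * J) + F ((a : G) * t) + F ((a : G) * (J * t)))
      = 4 * ∑ a : A, F a := by
    rw [Finset.sum_add_distrib, Finset.sum_add_distrib, Finset.sum_add_distrib]
    have e1 := htr ⟨J, hJA⟩
    have e2 := htr ⟨t, htA⟩
    have e3 := htr ⟨J * t, A.mul_mem hJA htA⟩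
    simp only at e1 e2 e3
    rw [e1, e2, e3]
    ring
  have hcardA : (Fintype.card A : ℝ) = (Nat.card A : ℝ) := by rw [Nat.card_eq_fintype_card]
  have hub : ∑ a : A, (F (a : G) + F ((a : G) * J) + F ((a : G) * t) + F ((a : G) * (J * t)))
      ≤ ∑ _a : A, (16 : ℝ) :=
    Finset.sum_le_sum fun a _ => hbr a (hAcomm' a J hJA) (hAcomm' a t htA)
  have hconst : ∑ _a : A, (16 : ℝ) = 16 * (Nat.card A : ℝ) := by
    rw [Finset.sum_const, Finset.card_univ, nsmul_eq_mul, hcardA]; ring
  have heq : ∑ a : A, (F (a : G) + F ((a : G) * J) + F ((a : G) * t) + F ((a : G) * (J * t)))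
      = ∑ _a : A, (16 : ℝ) := by
    apply le_antisymm hub
    rw [hconst, hsum]
    have : ((4 : ℕ) : ℝ) = 4 := by norm_num
    rw [this] at hlow
    linarith
  have hall := (Finset.sum_eq_sum_iff_of_le (s := (Finset.univ : Finset A))
    (f := fun a : A => F (a : G) + F ((a : G) * J) + F ((a : G) * t) + F ((a : G) * (J * t)))
    (g := fun _ => (16 : ℝ))
    (fun a _ => hbr a (hAcomm' a J hJA) (hAcomm' a t htA))).mp heq
  have hyy := hall ⟨y, hyA⟩ (Finset.mem_univ _)
  simp only at hyy
  have hy0 : ¬ 2 ∣ orderOf y := hy.not_two_dvd_nat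
  have hyJt : y * (J * t) = (J * t) * y := by
    calc y * (J * t) = (y * J) * t := by group
      _ = J * (y * t) := by rw [hyJ]; group
      _ = (J * t) * y := by rw [hyt]; group
  rw [hF0 _ (two_dvd_orderOf_mul _ _ hyJ hJ hy0), hF0 _ (two_dvd_orderOf_mul _ _ hyt ht hy0),
    hF0 _ (two_dvd_orderOf_mul _ _ hyJt hJt2 hy0)] at hyy
  have hFy : F y = 16 := by linarith
  have hnorm : ‖ρ.character y‖ = (Module.finrank ℂ (Fin 4 → ℂ) : ℝ) := by
    rw [hfin, hχ]
    have h0 : 0 ≤ ‖(χ : G → ℂ) y‖ := norm_nonneg _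
    simp only [hF] at hFy
    have : (‖(χ : G → ℂ) y‖ - 4) * (‖(χ : G → ℂ) y‖ + 4) = 0 := by ring_nf; linarith
    rcases mul_eq_zero.mp this with h | h
    · push_cast; linarith
    · exfalso; linarith
  obtain ⟨ω, hω⟩ := (Cfsg.Agent.H4.character_norm_eq_iff ρ y).mp hnorm
  have hsimple : ∀ N : Subgroup G, N.Normal → N = ⊥ ∨ N = ⊤ := fun N hN => hN.eq_bot_or_eq_top
  have hcenter : ∀ g : G, (∀ x : G, g * x = x * g) → g = 1 := by
    intro g hg
    have hgc : g ∈ Subgroup.center G := by
      rw [Subgroup.mem_center_iff]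
      intro x; exact (hg x).symm
    rcases hsimple (Subgroup.center G) inferInstance with h | h
    · rw [h] at hgc; exact Subgroup.mem_bot.mp hgc
    · exfalso
      obtain ⟨a, b, hab⟩ := hna
      apply hab
      have ha : a ∈ Subgroup.center G := by rw [h]; exact Subgroup.mem_top a
      rw [Subgroup.mem_center_iff] at ha
      exact (ha b).symm
  have hne : ρ.character ≠ fun _ => 1 := by
    intro h
    have := congrFun h 1
    rw [hχ, hχ1] at this
    norm_num at this
  exact Cfsg.Agent.H4.not_scalar_of_simple hsimple hcenter ρ hne y hy1 ω hω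

example : StmtCent4.{u} := cent4

end Cfsg.Agent.H68.Br

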