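import Mathlib
import Cfsg.Agent.H2.BrDefs
import Cfsg.Agent.H81.Reg

/-!
# S4501-COUNT3 (helper68, for helper2's team project S4501)

The class multiplication constant (involution, involution; `z`) for a self-centralizing real
element `z` of order `3` is `0` or `3`.
-/

set_option autoImplicit false
set_option linter.unusedSectionVars false
set_option linter.style.haveILetI false

namespace Cfsg.Agent.H68.Br

open Cfsg Cfsg.Agent.H2.Br

universe u

/-- If `z` of order `3` is self-centralizing and is a product of two conjugates of the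
involution `J`, then the number of pairs `(a, b)` with `a J a⁻¹ * b J b⁻¹ = z` is `3 |C(J)|²`. -/
theorem card_pairs_eq {G : Type*} [Group G] [Fintype G] [DecidableEq G] (z J : G)
    (hz : orderOf z = 3) (hcz : ∀ g : G, g * z = z * g → g ∈ Subgroup.zpowers z)
    (hJ : orderOf J = 2) (a₀ b₀ : G) (h₀ : a₀ * J * a₀⁻¹ * (b₀ * J * b₀⁻¹) = z) :
    (Finset.univ.filter (fun ab : G × G => ab.1 * J * ab.1⁻¹ * (ab.2 * J * ab.2⁻¹) = z)).card
      = 3 * Nat.card (Subgroup.centralizer ({J} : Set G)) ^ 2 := by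
  classical
  have hJ2 : J * J = 1 := by
    have := pow_orderOf_eq_one J
    rwa [hJ, pow_two] at this
  have hconj2 : ∀ a : G, (a * J * a⁻¹) * (a * J * a⁻¹) = 1 := by
    intro a
    calc (a * J * a⁻¹) * (a * J * a⁻¹) = a * (J * J) * a⁻¹ := by group
      _ = 1 := by rw [hJ2]; group
  have hinvz : ∀ u v : G, u * u = 1 → v * v = 1 → u * v = z → u * z * u⁻¹ = z⁻¹ := by
    intro u v hu hv huv
    have hu' : u⁻¹ = u := inv_eq_of_mul_eq_one_left hu
    have hv' : v⁻¹ = v := inv_eq_of_mul_eq_one_left hv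
    rw [← huv, mul_inv_rev, hu', hv']
    calc u * (u * v) * u = (u * u) * v * u := by group
      _ = v * u := by rw [hu, one_mul]
  have hz3 : z ^ 3 = 1 := by rw [← hz]; exact pow_orderOf_eq_one z
  have hw3 : ∀ w ∈ Subgroup.zpowers z, w ^ 3 = 1 := by
    intro w hw
    obtain ⟨k, rfl⟩ := Subgroup.mem_zpowers_iff.mp hw
    rw [← zpow_natCast, ← zpow_mul, mul_comm, zpow_mul, zpow_natCast, hz3, one_zpow]
  have hwz : ∀ w ∈ Subgroup.zpowers z, w * z = z * w := by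
    intro w hw
    obtain ⟨k, rfl⟩ := Subgroup.mem_zpowers_iff.mp hw
    exact (Commute.zpow_left (Commute.refl z) k).eq
  have hinvw : ∀ u : G, u * z * u⁻¹ = z⁻¹ → ∀ w ∈ Subgroup.zpowers z, u * w * u⁻¹ = w⁻¹ := by
    intro u hu w hw
    obtain ⟨k, rfl⟩ := Subgroup.mem_zpowers_iff.mp hw
    rw [← conj_zpow, hu, inv_zpow]
  have hu₀2 : (a₀ * J * a₀⁻¹) * (a₀ * J * a₀⁻¹) = 1 := hconj2 a₀
  have hv₀2 : (b₀ * J * b₀⁻¹) * (b₀ * J * b₀⁻¹) = 1 := hconj2 b₀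
  generalize hu₀ : a₀ * J * a₀⁻¹ = u₀ at hu₀2 h₀
  generalize hv₀ : b₀ * J * b₀⁻¹ = v₀ at hv₀2 h₀
  have hu₀z : u₀ * z * u₀⁻¹ = z⁻¹ := hinvz u₀ v₀ hu₀2 hv₀2 h₀
  have hu₀i : u₀⁻¹ = u₀ := inv_eq_of_mul_eq_one_left hu₀2
  have hC : ∀ c : G, c ∈ Subgroup.centralizer ({J} : Set G) ↔ c * J * c⁻¹ = J := by
    intro c
    rw [Subgroup.mem_centralizer_iff]
    constructor
    · intro h
      have := h J (Set.mem_singleton J)
      rw [← this]; group
    · intro h x hx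
      rw [Set.mem_singleton_iff] at hx
      subst hx
      calc x * c = (c * x * c⁻¹) * c := by rw [h]
        _ = c * x := by group
  have hfconj1 : ∀ (w c : G), c ∈ Subgroup.centralizer ({J} : Set G) →
      (w * a₀ * c) * J * (w * a₀ * c)⁻¹ = w * u₀ * w⁻¹ := by
    intro w c hc
    calc (w * a₀ * c) * J * (w * a₀ * c)⁻¹ = w * a₀ * (c * J * c⁻¹) * a₀⁻¹ * w⁻¹ := by group
      _ = w * (a₀ * J * a₀⁻¹) * w⁻¹ := by rw [(hC c).mp hc]; group
      _ = w * u₀ * w⁻¹ := by rw [hu₀]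
  have hfconj2 : ∀ (w d : G), d ∈ Subgroup.centralizer ({J} : Set G) →
      (w * b₀ * d) * J * (w * b₀ * d)⁻¹ = w * v₀ * w⁻¹ := by
    intro w d hd
    calc (w * b₀ * d) * J * (w * b₀ * d)⁻¹ = w * b₀ * (d * J * d⁻¹) * b₀⁻¹ * w⁻¹ := by group
      _ = w * (b₀ * J * b₀⁻¹) * w⁻¹ := by rw [(hC d).mp hd]; group
      _ = w * v₀ * w⁻¹ := by rw [hv₀]
  let f : (Subgroup.zpowers z) × (Subgroup.centralizer ({J} : Set G)) ×
      (Subgroup.centralizer ({J} : Set G)) → G × G :=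
    fun p => ((p.1 : G) * a₀ * (p.2.1 : G), (p.1 : G) * b₀ * (p.2.2 : G))
  have himg : Finset.univ.filter
      (fun ab : G × G => ab.1 * J * ab.1⁻¹ * (ab.2 * J * ab.2⁻¹) = z) = Finset.univ.image f := by
    ext ⟨a, b⟩
    simp only [Finset.mem_filter, Finset.mem_univ, true_and, Finset.mem_image]
    constructor
    · intro hab
      have hu2 := hconj2 a
      have hv2 := hconj2 b
      generalize hu : a * J * a⁻¹ = u at hu2 hab
      generalize hv : b * J * b⁻¹ = v at hv2 hab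
      have huz := hinvz u v hu2 hv2 hab
      have hui : u⁻¹ = u := inv_eq_of_mul_eq_one_left hu2
      have hwc : (u₀ * u) * z = z * (u₀ * u) := by
        have h1 : (u₀ * u) * z * (u₀ * u)⁻¹ = z := by
          calc (u₀ * u) * z * (u₀ * u)⁻¹ = u₀ * (u * z * u⁻¹) * u₀⁻¹ := by group
            _ = u₀ * z⁻¹ * u₀⁻¹ := by rw [huz]
            _ = (u₀ * z * u₀⁻¹)⁻¹ := by group
            _ = z := by rw [hu₀z, inv_inv]
        calc (u₀ * u) * z = ((u₀ * u) * z * (u₀ * u)⁻¹) * (u₀ * u) := by group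
          _ = z * (u₀ * u) := by rw [h1]
      have hwm : u₀ * u ∈ Subgroup.zpowers z := hcz _ hwc
      have hw3' := hw3 _ hwm
      have hw3'' : (u₀ * u) * (u₀ * u) * (u₀ * u) = 1 := by
        have := hw3'
        rwa [pow_succ, pow_two] at this
      have hwu : (u₀ * u) * u₀ * (u₀ * u)⁻¹ = u := by
        calc (u₀ * u) * u₀ * (u₀ * u)⁻¹ = u₀ * u * u₀ * (u⁻¹ * u₀⁻¹) := by group
          _ = u₀ * u * u₀ * (u * u₀) := by rw [hui, hu₀i]
          _ = ((u₀ * u) * (u₀ * u) * (u₀ * u)) * u⁻¹ := by group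
          _ = u := by rw [hw3'', one_mul, hui]
      have hwv : (u₀ * u) * v₀ * (u₀ * u)⁻¹ = v := by
        have hv₀e : v₀ = u₀⁻¹ * z := by rw [← h₀]; group
        have hve : v = u⁻¹ * z := by rw [← hab]; group
        have hcz' : z * (u₀ * u)⁻¹ = (u₀ * u)⁻¹ * z := by
          calc z * (u₀ * u)⁻¹ = (u₀ * u)⁻¹ * ((u₀ * u) * z) * (u₀ * u)⁻¹ := by group
            _ = (u₀ * u)⁻¹ * (z * (u₀ * u)) * (u₀ * u)⁻¹ := by rw [hwc]
            _ = (u₀ * u)⁻¹ * z := by group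
        calc (u₀ * u) * v₀ * (u₀ * u)⁻¹ = (u₀ * u) * u₀⁻¹ * (z * (u₀ * u)⁻¹) := by
              rw [hv₀e]; group
          _ = (u₀ * u) * u₀⁻¹ * ((u₀ * u)⁻¹ * z) := by rw [hcz']
          _ = ((u₀ * u) * u₀ * (u₀ * u)⁻¹) * z := by rw [hu₀i]; group
          _ = u * z := by rw [hwu]
          _ = v := by rw [hve, hui]
      have hcm : (u₀ * u * a₀)⁻¹ * a ∈ Subgroup.centralizer ({J} : Set G) := by
        rw [hC]
        calc (u₀ * u * a₀)⁻¹ * a * J * ((u₀ * u * a₀)⁻¹ * a)⁻¹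
            = (u₀ * u * a₀)⁻¹ * (a * J * a⁻¹) * (u₀ * u * a₀) := by group
          _ = (u₀ * u * a₀)⁻¹ * ((u₀ * u) * u₀ * (u₀ * u)⁻¹) * (u₀ * u * a₀) := by rw [hu, hwu]
          _ = a₀⁻¹ * u₀ * a₀ := by group
          _ = J := by rw [← hu₀]; group
      have hdm : (u₀ * u * b₀)⁻¹ * b ∈ Subgroup.centralizer ({J} : Set G) := by
        rw [hC]
        calc (u₀ * u * b₀)⁻¹ * b * J * ((u₀ * u * b₀)⁻¹ * b)⁻¹
            = (u₀ * u * b₀)⁻¹ * (b * J * b⁻¹) * (u₀ * u * b₀) := by group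
          _ = (u₀ * u * b₀)⁻¹ * ((u₀ * u) * v₀ * (u₀ * u)⁻¹) * (u₀ * u * b₀) := by rw [hv, hwv]
          _ = b₀⁻¹ * v₀ * b₀ := by group
          _ = J := by rw [← hv₀]; group
      refine ⟨(⟨u₀ * u, hwm⟩, ⟨_, hcm⟩, ⟨_, hdm⟩), ?_⟩
      simp only [f, Prod.mk.injEq]
      constructor <;> group
    · rintro ⟨⟨w, c, d⟩, hf⟩
      simp only [f, Prod.mk.injEq] at hf
      obtain ⟨rfl, rfl⟩ := hf
      rw [hfconj1 w c c.2, hfconj2 w d d.2]
      calc (w : G) * u₀ * (w : G)⁻¹ * ((w : G) * v₀ * (w : G)⁻¹)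
          = (w : G) * (u₀ * v₀) * (w : G)⁻¹ := by group
        _ = (w : G) * z * (w : G)⁻¹ := by rw [h₀]
        _ = z := by rw [hwz w w.2]; group
  have hinj : Function.Injective f := by
    rintro ⟨w, c, d⟩ ⟨w', c', d'⟩ h
    simp only [f, Prod.mk.injEq] at h
    obtain ⟨h1, h2⟩ := h
    have e : (w : G) * u₀ * (w : G)⁻¹ = (w' : G) * u₀ * (w' : G)⁻¹ := by
      rw [← hfconj1 w c c.2, ← hfconj1 w' c' c'.2, h1]
    have hkm : (w' : G)⁻¹ * w ∈ Subgroup.zpowers z :=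
      (Subgroup.zpowers z).mul_mem ((Subgroup.zpowers z).inv_mem w'.2) w.2
    have hk1 : ((w' : G)⁻¹ * w) * u₀ * ((w' : G)⁻¹ * w)⁻¹ = u₀ := by
      calc ((w' : G)⁻¹ * w) * u₀ * ((w' : G)⁻¹ * w)⁻¹
          = (w' : G)⁻¹ * ((w : G) * u₀ * (w : G)⁻¹) * w' := by group
        _ = (w' : G)⁻¹ * ((w' : G) * u₀ * (w' : G)⁻¹) * w' := by rw [e]
        _ = u₀ := by group
    have hk2 : u₀ * ((w' : G)⁻¹ * w) * u₀⁻¹ = ((w' : G)⁻¹ * w)⁻¹ := hinvw u₀ hu₀z _ hkm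
    have hk3 : u₀ * ((w' : G)⁻¹ * w) * u₀⁻¹ = (w' : G)⁻¹ * w := by
      calc u₀ * ((w' : G)⁻¹ * w) * u₀⁻¹
          = (((w' : G)⁻¹ * w) * u₀ * ((w' : G)⁻¹ * w)⁻¹) * ((w' : G)⁻¹ * w) * u₀⁻¹ := by rw [hk1]
        _ = (w' : G)⁻¹ * w := by group
    have hk4 : ((w' : G)⁻¹ * w) * ((w' : G)⁻¹ * w) = 1 := by
      have : ((w' : G)⁻¹ * w) = ((w' : G)⁻¹ * w)⁻¹ := by rw [← hk2, hk3]
      calc ((w' : G)⁻¹ * w) * ((w' : G)⁻¹ * w) = ((w' : G)⁻¹ * w)⁻¹ * ((w' : G)⁻¹ * w) := by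
            rw [← this]
        _ = 1 := by group
    have hk5 : (w' : G)⁻¹ * w = 1 := by
      have h3 := hw3 _ hkm
      have : ((w' : G)⁻¹ * w) ^ 3 = (w' : G)⁻¹ * w := by rw [pow_succ, pow_two, hk4, one_mul]
      rw [← this, h3]
    have hww : (w' : G) = w := inv_mul_eq_one.mp hk5
    have hw : w = w' := Subtype.ext hww.symm
    subst hw
    have hc : c = c' := Subtype.ext (mul_left_cancel h1)
    have hd : d = d' := Subtype.ext (mul_left_cancel h2)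
    rw [hc, hd]
  rw [himg, Finset.card_image_of_injective _ hinj, Finset.card_univ, Fintype.card_prod,
    Fintype.card_prod, Fintype.card_zpowers, hz, Nat.card_eq_fintype_card]
  ring

/-- S4501-COUNT3. -/
theorem count3 : StmtCount3.{u} := by
  intro G _ _ z J hz hcz hinv hJ hS
  classical
  letI : Fintype G := Fintype.ofFinite G
  have hJ2 : J * J = 1 := by
    have := pow_orderOf_eq_one J
    rwa [hJ, pow_two] at this
  have hJi : J⁻¹ = J := inv_eq_of_mul_eq_one_left hJ2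
  have hzi : ∀ χ : IrrCharacter G, (χ : G → ℂ) z⁻¹ = (χ : G → ℂ) z := by
    obtain ⟨g, hg⟩ := hinv
    intro χ
    rw [← hg, Cfsg.Agent.H81.irr_conj]
  have hcp := Cfsg.Agent.H81.card_conj_pairs (Cfsg.Agent.H81.regIdentity G) J z
  rw [hJi] at hcp
  have hsum : (∑ᶠ χ : IrrCharacter G,
      (χ : G → ℂ) J * (χ : G → ℂ) J * (χ : G → ℂ) z⁻¹ / (χ : G → ℂ) 1) =
      ∑ᶠ χ : IrrCharacter G, (χ : G → ℂ) J * (χ : G → ℂ) J * (χ : G → ℂ) z / (χ : G → ℂ) 1 :=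
    finsum_congr (fun χ => by rw [hzi χ])
  rw [hsum] at hcp
  rw [← hcp]
  have hG : (Nat.card G : ℂ) ≠ 0 := by exact_mod_cast Nat.card_pos.ne'
  have hne : (Finset.univ.filter
      (fun ab : G × G => ab.1 * J * ab.1⁻¹ * (ab.2 * J * ab.2⁻¹) = z)).Nonempty := by
    rw [Finset.nonempty_iff_ne_empty]
    intro h0
    rw [h0, Finset.card_empty, Nat.cast_zero] at hcp
    rcases mul_eq_zero.mp hcp.symm with h | h
    · exact hG h
    · exact hS h
  obtain ⟨⟨a₀, b₀⟩, hab⟩ := hne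
  rw [Finset.mem_filter] at hab
  rw [card_pairs_eq z J hz hcz hJ a₀ b₀ hab.2]
  push_cast
  ring

example : StmtCount3.{u} := count3

end Cfsg.Agent.H68.Br

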