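import Mathlib
import Cfsg.Agent.H64.Hall4Defs

/-!
# S4221 piece H4-REGORB (helper68, for helper64's team project)

A generic orbit–stabilizer lemma for subgroups of `Equiv.Perm α`, and the piece `RegOrbStmt`.
-/

set_option autoImplicit false
set_option linter.unusedSectionVars false
set_option linter.unusedVariables false

namespace Cfsg.Agent.H68.Hall4

open Equiv Cfsg.Agent.H64.Hall4

universe u

/-- Orbit–stabilizer for a subgroup `C` of `Perm α` acting transitively on an invariant set `X`,
with the stabilizer of `e ∈ X` described by a subgroup `S`. -/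
theorem card_eq_ncard_mul {α : Type u} (C : Subgroup (Perm α))
    (X : Set α) (e : α) (he : e ∈ X) (hX : ∀ g ∈ C, ∀ x ∈ X, g x ∈ X)
    (htr : ∀ x ∈ X, ∃ g ∈ C, g e = x) (S : Subgroup (Perm α))
    (hS : ∀ g ∈ C, g ∈ S ↔ g e = e) :
    Nat.card C = X.ncard * Nat.card ↥(C ⊓ S) := by
  have horb : MulAction.orbit C e = X := by
    ext x
    rw [MulAction.mem_orbit_iff]
    constructor
    · rintro ⟨g, rfl⟩
      exact hX g g.2 e he
    · intro hx
      obtain ⟨g, hg, hge⟩ := htr x hx
      exact ⟨⟨g, hg⟩, hge⟩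
  have hstab : MulAction.stabilizer C e = (C ⊓ S).subgroupOf C := by
    ext g
    rw [MulAction.mem_stabilizer_iff, Subgroup.mem_subgroupOf, Subgroup.mem_inf]
    constructor
    · intro h; exact ⟨g.2, (hS g g.2).mpr h⟩
    · intro h; exact (hS g g.2).mp h.2
  have h1 := Subgroup.index_mul_card (MulAction.stabilizer C e)
  rw [MulAction.index_stabilizer, horb, hstab] at h1
  rw [← h1]
  congr 1
  exact Nat.card_congr (Subgroup.subgroupOfEquivOfLe inf_le_left).toEquiv

theorem mem_fix2 {α : Type u} (g : Perm α) (a b : α) :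
    g ∈ fixingSubgroup (Perm α) ({a, b} : Set α) ↔ g a = a ∧ g b = b := by
  simp [mem_fixingSubgroup_iff]

theorem mem_fix4 {α : Type u} (g : Perm α) (a b c d : α) :
    g ∈ fixingSubgroup (Perm α) ({a, b, c, d} : Set α) ↔
      g a = a ∧ g b = b ∧ g c = c ∧ g d = d := by
  simp [mem_fixingSubgroup_iff]

/-- An element of the centralizer of `t` commutes with `t` pointwise. -/
theorem cent_apply {α : Type u} {t g : Perm α} (hg : g ∈ Subgroup.centralizer ({t} : Set (Perm α)))
    (x : α) : t (g x) = g (t x) := by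
  have h := Subgroup.mem_centralizer_iff.mp hg t (Set.mem_singleton t)
  have := congrArg (fun f : Perm α => f x) h
  simpa [Perm.mul_apply] using this

theorem mem_cent_of_comm {α : Type u} {t g : Perm α} (h : g * t = t * g) :
    g ∈ Subgroup.centralizer ({t} : Set (Perm α)) := by
  rw [Subgroup.mem_centralizer_iff]
  intro k hk
  rw [Set.mem_singleton_iff] at hk
  subst hk
  exact h.symm

theorem sq_apply {α : Type u} {t : Perm α} (ht : t * t = 1) (x : α) : t (t x) = x := by
  have := congrArg (fun f : Perm α => f x) ht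
  simpa [Perm.mul_apply] using this

/-- H4-REGORB. -/
theorem regOrb : RegOrbStmt.{u} := by
  intro α _ _ G y z hyz htr e he
  refine card_eq_ncard_mul (G ⊓ Subgroup.centralizer {y} ⊓ Subgroup.centralizer {z})
    {e : α | Reg y z e} e he ?_ ?_ _ ?_
  · rintro g ⟨⟨hgG, hgy⟩, hgz⟩ x ⟨hx1, hx2, hx3⟩
    refine ⟨?_, ?_, ?_⟩
    · rw [cent_apply hgy]
      exact fun h => hx1 (g.injective h)
    · rw [cent_apply hgz]
      exact fun h => hx2 (g.injective h)
    · rw [cent_apply hgz, cent_apply hgy]
      exact fun h => hx3 (g.injective h)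
  · intro x hx
    obtain ⟨h, hhG, hhy, hhz, hhe⟩ := htr e x he hx
    exact ⟨h, ⟨⟨hhG, mem_cent_of_comm hhy⟩, mem_cent_of_comm hhz⟩, hhe⟩
  · rintro g ⟨⟨hgG, hgy⟩, hgz⟩
    rw [mem_fix4]
    constructor
    · intro h; exact h.1
    · intro h
      refine ⟨h, ?_, ?_, ?_⟩
      · rw [← cent_apply hgy, h]
      · rw [← cent_apply hgz, h]
      · rw [← cent_apply hgy, ← cent_apply hgz, h]

example : RegOrbStmt.{u} := regOrb

end Cfsg.Agent.H68.Hall4

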