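import Mathlib
import Cfsg.Agent.H64.Hall4Defs
import Cfsg.Agent.H68.Hall4RegOrb

/-!
# S4221 piece H4-C0B (helper68, for helper64's team project)
-/

set_option autoImplicit false
set_option linter.unusedSectionVars false
set_option linter.unusedVariables false

namespace Cfsg.Agent.H68.Hall4

open Equiv Cfsg.Agent.H64.Hall4

universe u

/-- The number of non-fixed points of a permutation. -/
theorem card_filter_ne {α : Type u} [Fintype α] [DecidableEq α] (t : Perm α) :
    (Finset.univ.filter (fun e => t e ≠ e)).card = Fintype.card α - fixN t := by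
  have := Finset.card_filter_add_card_filter_not (s := (Finset.univ : Finset α))
    (p := fun e => t e = e)
  rw [Finset.card_univ] at this
  unfold fixN
  simp only [ne_eq]
  omega

/-- H4-C0B. -/
theorem c0Orbit : C0OrbitStmt.{u} := by
  intro α _ _ G hB t ht a b hta htb hba hbta
  obtain ⟨htG, ht2, ht1⟩ := ht
  have htt := fun x => sq_apply ht2 x
  have h1 : a ≠ t a := fun h => hta h.symm
  have h2 : a ≠ b := fun h => hba h.symm
  have h3 : a ≠ t b := by
    intro h; apply hbta; rw [h, htt]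
  have h4 : t a ≠ b := fun h => hbta h.symm
  have h5 : t a ≠ t b := fun h => h2 (t.injective h)
  have h6 : b ≠ t b := fun h => htb h.symm
  have hnd1 : [a, t a, b, t b].Nodup := by
    simp only [List.nodup_cons, List.mem_cons, List.not_mem_nil, or_false, not_or,
      List.nodup_nil, and_true, not_false_eq_true]
    exact ⟨⟨h1, h2, h3⟩, ⟨h4, h5⟩, h6⟩
  have key : Nat.card ↥(G ⊓ Subgroup.centralizer {t} ⊓
      fixingSubgroup (Perm α) ({a, t a} : Set α)) =
      Set.ncard {e : α | t e ≠ e ∧ e ≠ a ∧ e ≠ t a} *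
        Nat.card ↥(G ⊓ Subgroup.centralizer {t} ⊓ fixingSubgroup (Perm α) ({a, t a} : Set α) ⊓
          fixingSubgroup (Perm α) ({a, t a, b, t b} : Set α)) := by
    refine card_eq_ncard_mul _ {e : α | t e ≠ e ∧ e ≠ a ∧ e ≠ t a} b ⟨htb, hba, hbta⟩ ?_ ?_ _ ?_
    · rintro g ⟨⟨hgG, hgt⟩, hgf'⟩ x ⟨hx1, hx2, hx3⟩
      have hgf := (mem_fix2 g a (t a)).mp hgf'
      refine ⟨?_, ?_, ?_⟩
      · rw [cent_apply hgt]
        exact fun h => hx1 (g.injective h)
      · intro h; apply hx2; apply g.injective; rw [h, hgf.1]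
      · intro h; apply hx3; apply g.injective; rw [h, hgf.2]
    · rintro x ⟨hx1, hx2, hx3⟩
      have k2 : a ≠ x := fun h => hx2 h.symm
      have k3 : a ≠ t x := by
        intro h; apply hx3; rw [h, htt]
      have k4 : t a ≠ x := fun h => hx3 h.symm
      have k5 : t a ≠ t x := fun h => k2 (t.injective h)
      have k6 : x ≠ t x := fun h => hx1 h.symm
      have hnd2 : [a, t a, x, t x].Nodup := by
        simp only [List.nodup_cons, List.mem_cons, List.not_mem_nil, or_false, not_or,
          List.nodup_nil, and_true, not_false_eq_true]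
        exact ⟨⟨h1, k2, k3⟩, ⟨k4, k5⟩, k6⟩
      obtain ⟨g, hgG, hga, hgta, hgb, hgtb⟩ := hB.t4 a (t a) b (t b) a (t a) x (t x) hnd1 hnd2
      obtain ⟨h, hhG, hht, hha, hhta, hhb, hhtb, -⟩ :=
        hB.centLift t htG g hgG ht2 a (t a) b (t b) hnd1 (by rw [hga, hgta])
          (by rw [hgta, htt, hga]) (by rw [hgb, hgtb]) (by rw [hgtb, htt, htt, hgb])
      exact ⟨h, ⟨⟨hhG, mem_cent_of_comm hht⟩,
        (mem_fix2 h a (t a)).mpr ⟨by rw [hha, hga], by rw [hhta, hgta]⟩⟩, by rw [hhb, hgb]⟩
    · rintro g ⟨⟨hgG, hgt⟩, hgf'⟩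
      have hgf := (mem_fix2 g a (t a)).mp hgf'
      rw [mem_fix4]
      constructor
      · intro h; exact h.2.2.1
      · intro h; exact ⟨hgf.1, hgf.2, h, by rw [← cent_apply hgt, h]⟩
  rw [key]
  have hsub : G ⊓ Subgroup.centralizer {t} ⊓ fixingSubgroup (Perm α) ({a, t a} : Set α) ⊓
      fixingSubgroup (Perm α) ({a, t a, b, t b} : Set α) =
      G ⊓ Subgroup.centralizer {t} ⊓ fixingSubgroup (Perm α) ({a, t a, b, t b} : Set α) := by
    ext g
    simp only [Subgroup.mem_inf, mem_fix2, mem_fix4]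
    tauto
  rw [hsub]
  congr 1
  have hX : {e : α | t e ≠ e ∧ e ≠ a ∧ e ≠ t a} =
      ↑(((Finset.univ.filter (fun e => t e ≠ e)).erase a).erase (t a)) := by
    ext e
    simp only [Set.mem_ofPred_eq, Finset.coe_erase, Finset.coe_filter, Finset.mem_univ, true_and,
      Set.mem_sdiff, Set.mem_singleton_iff]
    tauto
  rw [hX, Set.ncard_coe_finset, Finset.card_erase_of_mem, Finset.card_erase_of_mem,
    card_filter_ne]
  · rfl
  · simp only [Finset.mem_filter, Finset.mem_univ, true_and]
    exact hta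
  · simp only [Finset.mem_erase, Finset.mem_filter, Finset.mem_univ, true_and]
    exact ⟨hta, by rw [htt]; exact h1⟩

example : C0OrbitStmt.{u} := c0Orbit

end Cfsg.Agent.H68.Hall4

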