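import Mathlib
import Cfsg.Agent.H64.Hall4Defs
import Cfsg.Agent.H68.Hall4RegOrb

/-!
# S4221 piece H4-CHY (helper68, for helper64's team project)
-/

set_option autoImplicit false
set_option linter.unusedSectionVars false
set_option linter.unusedVariables false

namespace Cfsg.Agent.H68.Hall4

open Equiv Cfsg.Agent.H64.Hall4

universe u

theorem mem_stab {α : Type u} (g : Perm α) (p : α) :
    g ∈ MulAction.stabilizer (Perm α) p ↔ g p = p := by
  rw [MulAction.mem_stabilizer_iff, Perm.smul_def]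

/-- H4-CHY. -/
theorem cHy : CHyStmt.{u} := by
  intro α _ _ G hB t ht p q r hp hq hpq hr
  obtain ⟨htG, ht2, ht1⟩ := ht
  have htt := fun x => sq_apply ht2 x
  have hfr : ∀ f, t f = f → f ≠ r ∧ f ≠ t r := by
    intro f hf
    constructor
    · intro h; rw [h] at hf; exact hr hf
    · intro h
      have h1 : t f = r := by rw [h, htt]
      rw [hf] at h1
      rw [h1] at h
      exact hr h.symm
  have hnd : ∀ x y, t x = x → t y = y → x ≠ y → [x, y, r, t r].Nodup := by
    intro x y hx hy hxy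
    simp only [List.nodup_cons, List.mem_cons, List.not_mem_nil, or_false, not_or,
      List.nodup_nil, and_true, not_false_eq_true]
    exact ⟨⟨hxy, (hfr x hx).1, (hfr x hx).2⟩, ⟨(hfr y hy).1, (hfr y hy).2⟩, fun h => hr h.symm⟩
  have lift : ∀ x y, t x = x → t y = y → x ≠ y →
      ∃ h ∈ G ⊓ Subgroup.centralizer {t} ⊓ fixingSubgroup (Perm α) ({r, t r} : Set α),
        h p = x ∧ h q = y := by
    intro x y hx hy hxy
    obtain ⟨g, hgG, hgp, hgq, hgr, hgtr⟩ :=
      hB.t4 p q r (t r) x y r (t r) (hnd p q hp hq hpq) (hnd x y hx hy hxy)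
    obtain ⟨h, hhG, hht, hhp, hhq, hhr, hhtr, -⟩ :=
      hB.centLift t htG g hgG ht2 p q r (t r) (hnd p q hp hq hpq) (by rw [hp, hgp, hx])
        (by rw [hq, hgq, hy]) (by rw [hgr, hgtr]) (by rw [hgtr, htt, hgr])
    exact ⟨h, ⟨⟨hhG, mem_cent_of_comm hht⟩,
      (mem_fix2 h r (t r)).mpr ⟨by rw [hhr, hgr], by rw [hhtr, hgtr]⟩⟩,
      by rw [hhp, hgp], by rw [hhq, hgq]⟩
  have key1 : Nat.card ↥(G ⊓ Subgroup.centralizer {t} ⊓
      fixingSubgroup (Perm α) ({r, t r} : Set α)) =
      Set.ncard {e : α | t e = e} *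
        Nat.card ↥(G ⊓ Subgroup.centralizer {t} ⊓ fixingSubgroup (Perm α) ({r, t r} : Set α) ⊓
          MulAction.stabilizer (Perm α) p) := by
    refine card_eq_ncard_mul _ {e : α | t e = e} p hp ?_ ?_ _ ?_
    · rintro g ⟨⟨hgG, hgt⟩, hgf'⟩ x hx
      show t (g x) = g x
      rw [cent_apply hgt, show t x = x from hx]
    · intro x hx
      by_cases hxp : x = p
      · obtain ⟨h, hh, hhp, -⟩ := lift x q hx hq (by rw [hxp]; exact hpq)
        exact ⟨h, hh, hhp⟩
      · obtain ⟨h, hh, hhp, -⟩ := lift x p hx hp hxp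
        exact ⟨h, hh, hhp⟩
    · intro g _
      exact mem_stab g p
  have key2 : Nat.card ↥(G ⊓ Subgroup.centralizer {t} ⊓
      fixingSubgroup (Perm α) ({r, t r} : Set α) ⊓ MulAction.stabilizer (Perm α) p) =
      Set.ncard {e : α | t e = e ∧ e ≠ p} *
        Nat.card ↥(G ⊓ Subgroup.centralizer {t} ⊓ fixingSubgroup (Perm α) ({r, t r} : Set α) ⊓
          MulAction.stabilizer (Perm α) p ⊓ MulAction.stabilizer (Perm α) q) := by
    refine card_eq_ncard_mul _ {e : α | t e = e ∧ e ≠ p} q ⟨hq, fun h => hpq h.symm⟩ ?_ ?_ _ ?_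
    · rintro g ⟨⟨⟨hgG, hgt⟩, hgf'⟩, hgp'⟩ x ⟨hx, hxp⟩
      have hgp := (mem_stab g p).mp hgp'
      refine ⟨?_, ?_⟩
      · rw [cent_apply hgt, hx]
      · intro h; apply hxp; apply g.injective; rw [h, hgp]
    · rintro x ⟨hx, hxp⟩
      obtain ⟨h, hh, hhp, hhq⟩ := lift p x hp hx (fun h => hxp h.symm)
      exact ⟨h, ⟨hh, (mem_stab h p).mpr hhp⟩, hhq⟩
    · intro g _
      exact mem_stab g q
  have hsub : G ⊓ Subgroup.centralizer {t} ⊓ fixingSubgroup (Perm α) ({r, t r} : Set α) ⊓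
      MulAction.stabilizer (Perm α) p ⊓ MulAction.stabilizer (Perm α) q =
      G ⊓ Subgroup.centralizer {t} ⊓ fixingSubgroup (Perm α) ({p, q, r, t r} : Set α) := by
    ext g
    simp only [Subgroup.mem_inf, mem_fix2, mem_fix4, mem_stab]
    tauto
  have hX1 : Set.ncard {e : α | t e = e} = fixN t := by
    have : {e : α | t e = e} = ↑(Finset.univ.filter (fun e => t e = e)) := by
      ext e
      simp
    rw [this, Set.ncard_coe_finset]
    rfl
  have hX2 : Set.ncard {e : α | t e = e ∧ e ≠ p} = fixN t - 1 := by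
    have : {e : α | t e = e ∧ e ≠ p} = ↑((Finset.univ.filter (fun e => t e = e)).erase p) := by
      ext e
      simp only [Set.mem_ofPred_eq, Finset.coe_erase, Finset.coe_filter, Finset.mem_univ,
        true_and, Set.mem_sdiff, Set.mem_singleton_iff]
    rw [this, Set.ncard_coe_finset, Finset.card_erase_of_mem]
    · rfl
    · simp only [Finset.mem_filter, Finset.mem_univ, true_and]
      exact hp
  rw [key1, key2, hsub, hX1, hX2]
  ring

example : CHyStmt.{u} := cHy

end Cfsg.Agent.H68.Hall4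

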