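import Mathlib
import Cfsg.Agent.H20.HtDefs
import Cfsg.Agent.H76.LinDer

/-!
# S3371-IRR (helper68, for helper20)

A faithful linear `p`-group in coprime characteristic whose stabilizers of nonzero vectors all
have the same order, and which is not semiregular, is irreducible.
-/

set_option autoImplicit false

namespace Cfsg.Agent.H68.Ht

open Cfsg.Agent.H20.Ht

universe u v

/-- S3371-IRR. -/
theorem irr : StmtIrr.{u, v} := by
  intro q _ V _ _ _ _ G _ _ ρ p hp hpG hpq hinj hEq hns W hW
  by_contra hcon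
  rw [not_or] at hcon
  obtain ⟨hWbot, hWtop⟩ := hcon
  apply hns
  have hq : q.Prime := Fact.out
  -- Maschke
  let ρ' : G →* Module.End (ZMod q) V :=
    { toFun := fun g => (ρ g : V →ₗ[ZMod q] V)
      map_one' := by rw [map_one]; rfl
      map_mul' := fun a b => by rw [map_mul]; rfl }
  have hp0 : (p : ZMod q) ≠ 0 := by
    intro h0
    have hdvd : q ∣ p := (ZMod.natCast_eq_zero_iff p q).mp h0
    exact hpq ((Nat.prime_dvd_prime_iff_eq hq hp.out).mp hdvd).symm
  have hc : (Nat.card G : ZMod q) ≠ 0 := by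
    obtain ⟨n, hn⟩ := IsPGroup.iff_card.mp hpG
    rw [hn]
    push_cast
    exact pow_ne_zero n hp0
  obtain ⟨W', hW', hcompl⟩ :=
    Cfsg.Agent.H76.LinDer.maschke ρ' hc W (fun g w hw => hW g w hw)
  have hW'inv : ∀ g : G, ∀ w ∈ W', ρ g w ∈ W' := fun g w hw => hW' g w hw
  have hW'bot : W' ≠ ⊥ := by
    intro h
    apply hWtop
    rw [h] at hcompl
    exact eq_top_of_isCompl_bot hcompl
  obtain ⟨w0, hw0W, hw0⟩ := (Submodule.ne_bot_iff W).mp hWbot
  obtain ⟨w0', hw0W', hw0'⟩ := (Submodule.ne_bot_iff W').mp hW'bot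
  have hdisj : ∀ x : V, x ∈ W → x ∈ W' → x = 0 := by
    intro x hx hx'
    have h2 : x ∈ W ⊓ W' := ⟨hx, hx'⟩
    rw [hcompl.inf_eq_bot] at h2
    exact (Submodule.mem_bot _).mp h2
  -- stabilizers of nonzero vectors of `W` and `W'` coincide
  have key : ∀ w ∈ W, w ≠ 0 → ∀ w' ∈ W', w' ≠ 0 → stab ρ w = stab ρ w' := by
    intro w hw hwne w' hw' hw'ne
    have hsum : w + w' ≠ 0 := by
      intro h
      have h1 : w = -w' := eq_neg_of_add_eq_zero_left h
      exact hwne (hdisj w hw (by rw [h1]; exact W'.neg_mem hw'))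
    have hst : stab ρ (w + w') = stab ρ w ⊓ stab ρ w' := by
      ext g
      simp only [Subgroup.mem_inf, mem_stab]
      constructor
      · intro hg
        rw [map_add] at hg
        have h1 : ρ g w - w = w' - ρ g w' := by
          rw [sub_eq_sub_iff_add_eq_add, hg, add_comm]
        have h2 : ρ g w - w = 0 :=
          hdisj _ (W.sub_mem (hW g w hw) hw)
            (by rw [h1]; exact W'.sub_mem hw' (hW'inv g w' hw'))
        have h3 : w' - ρ g w' = 0 := by rw [← h1]; exact h2
        exact ⟨sub_eq_zero.mp h2, (sub_eq_zero.mp h3).symm⟩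
      · rintro ⟨h1, h2⟩
        rw [map_add, h1, h2]
    have hc1 : Nat.card (stab ρ (w + w')) = Nat.card (stab ρ w) := hEq _ _ hsum hwne
    have hc2 : Nat.card (stab ρ (w + w')) = Nat.card (stab ρ w') := hEq _ _ hsum hw'ne
    have e1 : stab ρ w ⊓ stab ρ w' = stab ρ w :=
      Subgroup.eq_of_le_of_card_ge inf_le_left (by rw [← hst, hc1])
    have e2 : stab ρ w ⊓ stab ρ w' = stab ρ w' :=
      Subgroup.eq_of_le_of_card_ge inf_le_right (by rw [← hst, hc2])
    rw [← e1, e2]
  -- the common stabilizer fixes everything, so it is trivial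
  have hS : ∀ g ∈ stab ρ w0, g = 1 := by
    intro g hg
    apply hinj
    rw [map_one]
    ext x
    obtain ⟨a, ha, b, hb, rfl⟩ : ∃ a ∈ W, ∃ b ∈ W', a + b = x := by
      have hx : x ∈ W ⊔ W' := by rw [hcompl.sup_eq_top]; trivial
      exact Submodule.mem_sup.mp hx
    have hga : ρ g a = a := by
      by_cases ha0 : a = 0
      · rw [ha0, map_zero]
      · have h1 : stab ρ a = stab ρ w0' := key a ha ha0 w0' hw0W' hw0'
        have h2 : stab ρ w0 = stab ρ w0' := key w0 hw0W hw0 w0' hw0W' hw0'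
        have h3 : g ∈ stab ρ a := by rw [h1, ← h2]; exact hg
        exact h3
    have hgb : ρ g b = b := by
      by_cases hb0 : b = 0
      · rw [hb0, map_zero]
      · have h1 : stab ρ w0 = stab ρ b := key w0 hw0W hw0 b hb hb0
        have h3 : g ∈ stab ρ b := by rw [← h1]; exact hg
        exact h3
    rw [map_add, hga, hgb]
    rfl
  -- hence the action is semiregular
  intro x hx g hg
  have hcard : Nat.card (stab ρ x) = Nat.card (stab ρ w0) := hEq x w0 hx hw0
  have hbot : stab ρ w0 = ⊥ := (Subgroup.eq_bot_iff_forall _).mpr hS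
  rw [hbot, Subgroup.card_bot] at hcard
  have hxbot : stab ρ x = ⊥ := Subgroup.card_eq_one.mp hcard
  have hgm : g ∈ stab ρ x := hg
  rw [hxbot, Subgroup.mem_bot] at hgm
  exact hgm

example : Cfsg.Agent.H20.Ht.StmtIrr.{u, v} := irr

end Cfsg.Agent.H68.Ht
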