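import Mathlib
import Cfsg.Agent.H20.HtDefs

/-!
# S3371-NOR2 (helper68, for helper20)

A group acting semiregularly on the nonzero vectors of a `ZMod q`-module contains no
`C_p × C_p` for a prime `p ≠ q`.
-/

set_option autoImplicit false

namespace Cfsg.Agent.H68.Ht

open Cfsg.Agent.H20.Ht

universe u v

/-- The "norm" of an element `y ≠ 1` with `y ^ p = 1` kills every vector, when the action is
semiregular. -/
theorem norm_eq_zero {q : ℕ} [Fact q.Prime] {V : Type v} [AddCommGroup V] [Module (ZMod q) V]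
    {G : Type u} [Group G] (ρ : G →* (V ≃ₗ[ZMod q] V)) (hs : Semireg ρ) (p : ℕ) (y : G)
    (hy1 : y ≠ 1) (hyp : y ^ p = 1) (v : V) :
    ∑ k ∈ Finset.range p, ρ (y ^ k) v = 0 := by
  by_contra hne
  apply hy1
  refine hs _ hne y ?_
  rw [map_sum]
  have h1 : ∀ k ∈ Finset.range p, ρ y (ρ (y ^ k) v) = ρ (y ^ (k + 1)) v := by
    intro k _
    rw [pow_succ', map_mul]
    rfl
  rw [Finset.sum_congr rfl h1]
  have h2 := Finset.sum_range_succ (fun k => ρ (y ^ k) v) p
  have h3 := Finset.sum_range_succ' (fun k => ρ (y ^ k) v) p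
  simp only [pow_zero, map_one, hyp] at h2 h3
  rw [h2] at h3
  exact (add_right_cancel h3).symm

/-- S3371-NOR2. -/
theorem noRank2 : StmtNoRank2.{u, v} := by
  intro q _ V _ _ _ _ G _ _ ρ p hp hpq hs z x hz1 hzp hxp hxz hcomm
  obtain ⟨v, hv⟩ := exists_ne (0 : V)
  have hordz : orderOf z = p := orderOf_eq_prime hzp hz1
  have hcz : Commute x z := hcomm.symm
  -- the `p` subgroups generated by `x * z ^ i`
  have h1 : ∀ i ∈ Finset.range p, ∑ k ∈ Finset.range p, ρ (x ^ k * (z ^ k) ^ i) v = 0 := by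
    intro i _
    have hne : x * z ^ i ≠ 1 := by
      intro h
      apply hxz
      have hx : x = (z ^ i)⁻¹ := eq_inv_of_mul_eq_one_left h
      rw [hx]
      exact Subgroup.inv_mem _ (Subgroup.pow_mem _ (Subgroup.mem_zpowers z) i)
    have hpw : (x * z ^ i) ^ p = 1 := by
      rw [(hcz.pow_right i).mul_pow, hxp, ← pow_mul, mul_comm, pow_mul, hzp, one_pow, one_mul]
    have h := norm_eq_zero ρ hs p (x * z ^ i) hne hpw v
    rw [← h]
    refine Finset.sum_congr rfl fun k _ => ?_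
    rw [(hcz.pow_right i).mul_pow, ← pow_mul, ← pow_mul, mul_comm i k]
  have h2 : ∑ i ∈ Finset.range p, ∑ k ∈ Finset.range p, ρ (x ^ k * (z ^ k) ^ i) v = 0 :=
    Finset.sum_eq_zero h1
  rw [Finset.sum_comm] at h2
  have h3 : ∀ k ∈ Finset.range p, k ≠ 0 →
      ∑ i ∈ Finset.range p, ρ (x ^ k * (z ^ k) ^ i) v = 0 := by
    intro k hk hk0
    have hzk : z ^ k ≠ 1 := by
      intro h
      have hd : p ∣ k := hordz ▸ orderOf_dvd_of_pow_eq_one h
      have hlt : k < p := Finset.mem_range.mp hk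
      exact hk0 (Nat.eq_zero_of_dvd_of_lt hd hlt)
    have hzkp : (z ^ k) ^ p = 1 := by rw [← pow_mul, mul_comm, pow_mul, hzp, one_pow]
    have h := norm_eq_zero ρ hs p (z ^ k) hzk hzkp v
    have h4 : ∀ i ∈ Finset.range p, ρ (x ^ k * (z ^ k) ^ i) v = ρ (x ^ k) (ρ ((z ^ k) ^ i) v) := by
      intro i _
      rw [map_mul]
      rfl
    rw [Finset.sum_congr rfl h4, ← map_sum, h, map_zero]
  have hp0 : 0 ∈ Finset.range p := Finset.mem_range.mpr hp.out.pos
  rw [Finset.sum_eq_single_of_mem 0 hp0 h3] at h2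
  simp only [pow_zero, one_pow, mul_one, map_one, LinearEquiv.coe_one, id_eq, Finset.sum_const,
    Finset.card_range] at h2
  have h5 : ((p : ZMod q)) • v = 0 := by
    rw [Nat.cast_smul_eq_nsmul]
    exact h2
  have hpq0 : (p : ZMod q) ≠ 0 := by
    intro h
    rw [ZMod.natCast_eq_zero_iff] at h
    have hq : Nat.Prime q := Fact.out
    exact hpq ((Nat.prime_dvd_prime_iff_eq hq hp.out).mp h).symm
  rcases smul_eq_zero.mp h5 with h6 | h6
  · exact hpq0 h6
  · exact hv h6

example : Cfsg.Agent.H20.Ht.StmtNoRank2.{u, v} := noRank2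

end Cfsg.Agent.H68.Ht
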