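import Cfsg.Agent.H68.StGen
import Cfsg.Agent.H23.Canon

/-!
# helper68: the Steinberg character of the Chevalley groups (from the generic (B,N)-pair theorem)
-/

set_option autoImplicit false
set_option linter.style.haveILetI false

namespace Cfsg.Agent.H68.St

open Cfsg Cfsg.Lie Cfsg.H8Exch Cfsg.H8BN Cfsg.Agent.H23

section Chev

variable {D : ChevalleyDatum} {F : Type*} [Field F] {z : ℕ → ℕ → ℤ} {η : ℕ → ℕ → ℤ}

theorem nG_inj (hP : PackB D F z η) {i j : ℕ} (hi : i < D.rank) (hj : j < D.rank)
    (h : nG hP.sem i = nG hP.sem j) : i = j := by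
  by_contra hij
  apply nU_inv_mul_nU_not_mem hP.sem hP.semN hP.tab hP.tab2 i j hi hj hij
  have : nU hP.sem (D.simple i) 1 = nU hP.sem (D.simple j) 1 := congrArg Subtype.val h
  rw [this, inv_mul_cancel]
  exact Subgroup.one_mem _

/-- the parabolic subgroup of the datum is the abstract one -/
theorem parabolicIn_eq (hP : PackB D F z η) (J : Finset ℕ) (hJ : ∀ j ∈ J, j < D.rank) :
    D.parabolicIn F J = (bnPair hP).parabolic (nG hP.sem '' (J : Set ℕ)) := by
  have hS := hP.sem
  unfold ChevalleyDatum.parabolicIn ChevalleyDatum.parabolicSubgroup BNPair.parabolic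
  rw [bnPair_B]
  have hT : {g : GL D.Idx F | ∃ j ∈ (J : Set ℕ), j < D.rank ∧
      (g : Matrix D.Idx D.Idx F) = D.nMat F (D.simple j) 1}
      = (D.group F).subtype '' (nG hP.sem '' (J : Set ℕ)) := by
    ext g
    constructor
    · rintro ⟨j, hj, _, hg⟩
      exact ⟨nG hP.sem j, ⟨j, hj, rfl⟩, (eq_wordU hS g _ hg).symm⟩
    · rintro ⟨_, ⟨j, hj, rfl⟩, rfl⟩
      exact ⟨j, hj, hJ j hj, nU_val hS _ _⟩
  rw [hT, ← MonoidHom.map_closure,
    Subgroup.subgroupOf_sup (borel_le_group hS) (Subgroup.map_subtype_le _)]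
  congr 1
  exact Subgroup.comap_map_eq_self_of_injective (Subgroup.subtype_injective _) _

open Classical in
/-- the Steinberg class function of the datum is the abstract Steinberg function of its (B,N)-pair -/
theorem chev_stein_eq (hP : PackB D F z η) [Fintype (bnPair hP).S] :
    D.steinbergCharacter F = stein (bnPair hP) := by
  funext g
  unfold ChevalleyDatum.steinbergCharacter stein
  have hS := hP.sem
  let ii : Finset ℕ → Finset (bnPair hP).S := fun J =>
    (Finset.univ : Finset (bnPair hP).S).filter (fun s => ∃ j ∈ J, nG hP.sem j = s.1)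
  let jj : Finset (bnPair hP).S → Finset ℕ := fun X =>
    (Finset.range D.rank).filter (fun j => ∃ s ∈ X, s.1 = nG hP.sem j)
  have hval : ∀ J : Finset ℕ, (∀ j ∈ J, j < D.rank) →
      Subtype.val '' ((ii J : Finset (bnPair hP).S) : Set (bnPair hP).S) = nG hP.sem '' (J : Set ℕ) := by
    intro J hJ
    ext x
    constructor
    · rintro ⟨s, hs, rfl⟩
      have hs' : s ∈ ii J := by exact_mod_cast hs
      simp only [ii, Finset.mem_filter, Finset.mem_univ, true_and] at hs'
      obtain ⟨j, hj, e⟩ := hs'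
      exact ⟨j, by exact_mod_cast hj, e⟩
    · rintro ⟨j, hj, rfl⟩
      have hj' : j ∈ J := by exact_mod_cast hj
      refine ⟨⟨nG hP.sem j, nG_mem_S hP j (hJ j hj')⟩, ?_, rfl⟩
      have : (⟨nG hP.sem j, nG_mem_S hP j (hJ j hj')⟩ : (bnPair hP).S) ∈ ii J := by
        simp only [ii, Finset.mem_filter, Finset.mem_univ, true_and]
        exact ⟨j, hj', rfl⟩
      exact_mod_cast this
  have hcard : ∀ J : Finset ℕ, (∀ j ∈ J, j < D.rank) → (ii J).card = J.card := by
    intro J hJ
    symm
    apply Finset.card_bij (fun j hj => (⟨nG hP.sem j, nG_mem_S hP j (hJ j hj)⟩ : (bnPair hP).S))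
    · intro j hj
      simp only [ii, Finset.mem_filter, Finset.mem_univ, true_and]
      exact ⟨j, hj, rfl⟩
    · intro a ha b hb h
      exact nG_inj hP (hJ a ha) (hJ b hb) (congrArg Subtype.val h)
    · intro s hs
      simp only [ii, Finset.mem_filter, Finset.mem_univ, true_and] at hs
      obtain ⟨j, hj, e⟩ := hs
      exact ⟨j, hj, Subtype.ext e⟩
  apply Finset.sum_nbij' ii jj
  · intro J _
    exact Finset.mem_powerset.2 (Finset.subset_univ _)
  · intro X _
    exact Finset.mem_powerset.2 (Finset.filter_subset _ _)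
  · intro J hJ
    have hJ' : ∀ j ∈ J, j < D.rank := fun j hj =>
      Finset.mem_range.1 (Finset.mem_powerset.1 hJ hj)
    ext k
    simp only [jj, ii, Finset.mem_filter, Finset.mem_range, Finset.mem_univ, true_and]
    constructor
    · rintro ⟨hk, s, ⟨j, hj, e⟩, e'⟩
      have : j = k := nG_inj hP (hJ' j hj) hk (e.trans e')
      rw [← this]; exact hj
    · intro hk
      exact ⟨hJ' k hk, ⟨nG hP.sem k, nG_mem_S hP k (hJ' k hk)⟩, ⟨k, hk, rfl⟩, rfl⟩
  · intro X _
    ext s
    simp only [jj, ii, Finset.mem_filter, Finset.mem_range, Finset.mem_univ, true_and]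
    constructor
    · rintro ⟨k, ⟨_, s', hs', e'⟩, e⟩
      have : s' = s := Subtype.ext (e'.trans e)
      rw [← this]; exact hs'
    · intro hs
      obtain ⟨k, hk, e⟩ := eq_nG_of_mem_S hP s.1 s.2
      exact ⟨k, ⟨hk, s, hs, e⟩, e.symm⟩
  · intro J hJ
    have hJ' : ∀ j ∈ J, j < D.rank := fun j hj =>
      Finset.mem_range.1 (Finset.mem_powerset.1 hJ hj)
    rw [hcard J hJ', parabolicIn_eq hP J hJ']
    unfold par
    rw [hval J hJ']

/-- `B ∩ n B n⁻¹ ≤ H` when `n U n⁻¹ = V` (in the general linear group) -/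
theorem mem_diag_of_conj (hP : PackB D F z η) (hV : SemV D F) (n : GL D.Idx F)
    (hn : n ∈ D.monomialSubgroup F)
    (hconj : (D.posUnipotent F).map (MulAut.conj n).toMonoidHom = D.negUnipotent F)
    (g : GL D.Idx F) (hg : g ∈ D.borelSubgroup F) (hg' : n⁻¹ * g * n ∈ D.borelSubgroup F) :
    g ∈ D.diagonalSubgroup F := by
  have hS := hP.sem
  obtain ⟨u, hu, h, hh, e⟩ := exists_mul_of_mem_sup _ _
    (diagonal_le_normalizer_rootGen hS D.IsPosRoot (fun r hr => hr.1)) _ hg'
  have hv : n * u * n⁻¹ ∈ D.negUnipotent F := by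
    rw [← hconj]
    exact Subgroup.mem_map.2 ⟨u, hu, rfl⟩
  have hnorm := monomial_le_normalizer_diag hS hP.semN hP.tab hP.etaNeg hn
  have hh' : n * h * n⁻¹ ∈ D.diagonalSubgroup F := (Subgroup.mem_normalizer_iff.mp hnorm h).mp hh
  have eg : g = (n * u * n⁻¹) * (n * h * n⁻¹) := by
    have : g = n * (n⁻¹ * g * n) * n⁻¹ := by group
    rw [this, e]; group
  have hvB : n * u * n⁻¹ ∈ D.borelSubgroup F := by
    have : n * u * n⁻¹ = g * (n * h * n⁻¹)⁻¹ := by rw [eg]; group
    rw [this]
    exact Subgroup.mul_mem _ hg (Subgroup.inv_mem _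
      ((le_sup_right : D.diagonalSubgroup F ≤ D.borelSubgroup F) hh'))
  have hv1 : n * u * n⁻¹ = 1 := by
    have : n * u * n⁻¹ ∈ D.borelSubgroup F ⊓ D.negUnipotent F := ⟨hvB, hv⟩
    rw [borel_inf_neg hS hV] at this
    exact Subgroup.mem_bot.1 this
  rw [eg, hv1, one_mul]
  exact hh'

/-- **S2311 (generic in the pack)**: the Steinberg class function is an irreducible character. -/
theorem chev_irr [Fintype F] (hP : PackB D F z η) :
    IsIrrCharacter ↥(D.group F) (D.steinbergCharacter F) := by
  letI : Fintype ↥(D.group F) := Fintype.ofFinite _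
  letI : Fintype (bnPair hP).S := Fintype.ofFinite _
  rw [chev_stein_eq hP]
  exact stein_irr (bnPair hP)

/-- **S2313 (generic in the pack)**: the restriction of the Steinberg character to `B` is `1_H^B`. -/
theorem chev_borel [Fintype F] (hP : PackB D F z η) (hV : SemV D F) (w : List ℕ) (hW : TabW D w)
    (b : ↥((D.borelSubgroup F).subgroupOf (D.group F))) :
    D.steinbergCharacter F (((D.borelSubgroup F).subgroupOf (D.group F)).subtype b) =
      fixedPointCharacter (((D.diagonalSubgroup F).subgroupOf (D.group F)).subgroupOf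
        ((D.borelSubgroup F).subgroupOf (D.group F))) b := by
  letI : Fintype ↥(D.group F) := Fintype.ofFinite _
  letI : Fintype (bnPair hP).S := Fintype.ofFinite _
  have hS := hP.sem
  obtain ⟨n, hn, hconj⟩ := exists_conj_pos_eq_neg hS hP.semN hP.tab w hW
  let n1 : (bnPair hP).N := ⟨⟨n, monomial_le_group hS hn⟩, Subgroup.mem_subgroupOf.mpr hn⟩
  have hHle : ∀ m : (bnPair hP).N,
      (D.diagonalSubgroup F).subgroupOf (D.group F) ≤ BInt (bnPair hP) (m : ↥(D.group F)) := by
    intro m h hh
    rw [mem_BInt]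
    rw [Subgroup.mem_subgroupOf] at hh
    have hm : ((m : ↥(D.group F)) : GL D.Idx F) ∈ D.monomialSubgroup F :=
      Subgroup.mem_subgroupOf.mp m.2
    refine ⟨Subgroup.mem_subgroupOf.mpr
      ((le_sup_right : D.diagonalSubgroup F ≤ D.borelSubgroup F) hh), ?_⟩
    show _ ∈ (D.borelSubgroup F).subgroupOf (D.group F)
    rw [Subgroup.mem_subgroupOf]
    have hnorm := monomial_le_normalizer_diag hS hP.semN hP.tab hP.etaNeg (Subgroup.inv_mem _ hm)
    have h1 := (Subgroup.mem_normalizer_iff.mp hnorm _).mp hh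
    rw [inv_inv] at h1
    exact (le_sup_right : D.diagonalSubgroup F ≤ D.borelSubgroup F) h1
  have hB1 : BInt (bnPair hP) (n1 : ↥(D.group F)) = (D.diagonalSubgroup F).subgroupOf (D.group F) := by
    apply le_antisymm _ (hHle n1)
    intro g hg
    rw [mem_BInt] at hg
    rw [Subgroup.mem_subgroupOf]
    exact mem_diag_of_conj hP hV n hn hconj g (Subgroup.mem_subgroupOf.mp hg.1)
      (Subgroup.mem_subgroupOf.mp hg.2)
  have hmin : ∀ m : (bnPair hP).N, Nat.card ↥(BInt (bnPair hP) (n1 : ↥(D.group F)))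
      ≤ Nat.card ↥(BInt (bnPair hP) (m : ↥(D.group F))) := by
    intro m
    rw [hB1]
    exact Subgroup.card_le_of_le (hHle m)
  have key := stein_borel_of_min (bnPair hP) n1 hmin (b : ↥(D.group F)) b.2
  rw [hB1] at key
  rw [chev_stein_eq hP]
  exact key

/-- **S2327 (generic in the pack)**: the degree of the Steinberg character. -/
theorem chev_degree [Fintype F] (hP : PackB D F z η) (hV : SemV D F) (w : List ℕ) (hW : TabW D w) :
    D.steinbergCharacter F 1 = (Nat.card F : ℂ) ^ numPos D := by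
  have hS := hP.sem
  have h := chev_borel hP hV w hW 1
  rw [map_one] at h
  rw [h]
  unfold fixedPointCharacter
  have hle : (D.diagonalSubgroup F).subgroupOf (D.group F) ≤
      (D.borelSubgroup F).subgroupOf (D.group F) := by
    intro x hx
    rw [Subgroup.mem_subgroupOf] at hx ⊢
    exact (le_sup_right : D.diagonalSubgroup F ≤ D.borelSubgroup F) hx
  have h1 : Nat.card (MulAction.fixedBy
      (↥((D.borelSubgroup F).subgroupOf (D.group F)) ⧸
        ((D.diagonalSubgroup F).subgroupOf (D.group F)).subgroupOf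
          ((D.borelSubgroup F).subgroupOf (D.group F)))
      (1 : ↥((D.borelSubgroup F).subgroupOf (D.group F)))) =
      Nat.card (↥((D.borelSubgroup F).subgroupOf (D.group F)) ⧸
        ((D.diagonalSubgroup F).subgroupOf (D.group F)).subgroupOf
          ((D.borelSubgroup F).subgroupOf (D.group F))) := by
    rw [MulAction.fixedBy_one_eq_univ]
    exact Nat.card_congr (Equiv.Set.univ _)
  have h2 := Subgroup.card_eq_card_quotient_mul_card_subgroup
    (((D.diagonalSubgroup F).subgroupOf (D.group F)).subgroupOf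
      ((D.borelSubgroup F).subgroupOf (D.group F)))
  have h3 : Nat.card ↥((D.borelSubgroup F).subgroupOf (D.group F)) =
      Nat.card ↥(D.borelSubgroup F) :=
    Nat.card_congr (Subgroup.subgroupOfEquivOfLe (borel_le_group hS)).toEquiv
  have h4 : Nat.card ↥(((D.diagonalSubgroup F).subgroupOf (D.group F)).subgroupOf
      ((D.borelSubgroup F).subgroupOf (D.group F))) = Nat.card ↥(D.diagonalSubgroup F) := by
    rw [Nat.card_congr (Subgroup.subgroupOfEquivOfLe hle).toEquiv,
      Nat.card_congr (Subgroup.subgroupOfEquivOfLe (diagonal_le_group hS)).toEquiv]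
  have h5 := card_borel hP hV w hW
  have hpos : 0 < Nat.card ↥(D.diagonalSubgroup F) := Nat.card_pos
  have h6 : Nat.card (↥((D.borelSubgroup F).subgroupOf (D.group F)) ⧸
        ((D.diagonalSubgroup F).subgroupOf (D.group F)).subgroupOf
          ((D.borelSubgroup F).subgroupOf (D.group F))) = Nat.card F ^ numPos D := by
    rw [h3, h5, h4] at h2
    apply Nat.eq_of_mul_eq_mul_right hpos
    rw [← h2, mul_comm]
  rw [h1, h6]
  push_cast
  rfl

end Chev

end Cfsg.Agent.H68.St
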