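import Cfsg.Agent.H68.StDefs
import Cfsg.Agent.H51.StWC
import Cfsg.Agent.H37.StBA
import Cfsg.Agent.H27.StBB
import Cfsg.Agent.H98.StBC
import Cfsg.Agent.H19.BSTransfer
import Cfsg.Agent.H19.IndFun

/-!
# helper68: the Steinberg character of a finite group with a (B,N)-pair (generic assembly)
-/

set_option autoImplicit false
set_option linter.style.haveILetI false

namespace Cfsg.Agent.H68.St

open Cfsg Cfsg.H8Exch Cfsg.H8BN
open scoped ComplexConjugate

universe u

section WW

variable {W : Type*} [Group W] {ι : Type*}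

theorem len_inv' (f : ι → W) (hf2 : ∀ i, f i * f i = 1) (hgen : Subgroup.closure (Set.range f) = ⊤)
    (w : W) : len f w⁻¹ = len f w := by
  have key : ∀ w : W, len f w⁻¹ ≤ len f w := by
    intro w
    obtain ⟨l, h1, h2⟩ := exists_reduced f hf2 hgen w
    have := len_le f l.reverse
    rw [wprod_reverse f hf2, h2, List.length_reverse, h1] at this
    exact this
  apply le_antisymm (key w)
  have := key w⁻¹
  rwa [inv_inv] at this

theorem len_mul_right_ne' (f : ι → W) (hf2 : ∀ i, f i * f i = 1)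
    (hgen : Subgroup.closure (Set.range f) = ⊤)
    (Ps : ι → Set W) (hA : ∀ i, (1 : W) ∈ Ps i) (hB : ∀ i w, w ∈ Ps i → f i * w ∉ Ps i)
    (hC : ∀ i j w, w ∈ Ps i → w * f j ∉ Ps i → f i * w = w * f j) (i : ι) (w : W) :
    len f (w * f i) ≠ len f w := by
  have h1 := len_mul_ne f hf2 hgen Ps hA hB hC i w⁻¹
  have h2 : (w * f i)⁻¹ = f i * w⁻¹ := by rw [mul_inv_rev, inv_gen f hf2]
  rw [← len_inv' f hf2 hgen (w * f i), h2, ← len_inv' f hf2 hgen w]
  exact h1

end WW

theorem alt_sum_subsets {α : Type*} [Fintype α] [DecidableEq α] (A : Finset α) :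
    ∑ X ∈ (Finset.univ : Finset α).powerset, (-1 : ℂ) ^ X.card * (if X ⊆ A then 1 else 0)
      = if A = ∅ then 1 else 0 := by
  have h1 : ∑ X ∈ (Finset.univ : Finset α).powerset, (-1 : ℂ) ^ X.card * (if X ⊆ A then 1 else 0)
      = ∑ X ∈ A.powerset, (-1 : ℂ) ^ X.card := by
    have : ∀ X : Finset α, (-1 : ℂ) ^ X.card * (if X ⊆ A then 1 else 0)
        = if X ⊆ A then (-1 : ℂ) ^ X.card else 0 := by
      intro X; split_ifs <;> simp
    simp_rw [this]
    rw [← Finset.sum_filter]
    apply Finset.sum_congr _ (fun _ _ => rfl)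
    ext X
    simp only [Finset.mem_filter, Finset.mem_powerset, Finset.subset_univ, true_and]
  rw [h1]
  have h2 := Finset.sum_powerset_neg_one_pow_card (x := A)
  have h3 : ((∑ m ∈ A.powerset, (-1 : ℤ) ^ m.card : ℤ) : ℂ) = ((if A = ∅ then 1 else 0 : ℤ) : ℂ) := by
    rw [h2]
  push_cast at h3
  rw [h3]

section Gen

variable {G : Type u} [Group G] (P : BNPair G)

/-- the Steinberg function: alternating sum of the parabolic permutation characters -/
noncomputable def stein [Fintype P.S] : G → ℂ :=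
  fun g => ∑ X ∈ (Finset.univ : Finset P.S).powerset,
    (-1 : ℂ) ^ X.card * fixedPointCharacter (par P (X : Set P.S)) g

theorem lenW_mul_right_ne (s : P.S) (w : Wq P) : len (sg P) (w * sg P s) ≠ len (sg P) w :=
  len_mul_right_ne' (sg P) (sg_mul_self P) (closure_range_sg P) (Ps P) (Ps_one P) (Ps_B P) (Ps_C P) s w

open Classical in
/-- left ascent set -/
noncomputable def AL [Fintype P.S] (w : Wq P) : Finset P.S :=
  Finset.univ.filter (fun s => len (sg P) w < len (sg P) (sg P s * w))

open Classical in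
/-- right ascent set -/
noncomputable def AR [Fintype P.S] (w : Wq P) : Finset P.S :=
  Finset.univ.filter (fun s => len (sg P) w < len (sg P) (w * sg P s))

theorem mem_Red_coe [Fintype P.S] (X Y : Finset P.S) (w : Wq P) :
    w ∈ Red (sg P) (X : Set P.S) (Y : Set P.S) ↔ X ⊆ AL P w ∧ Y ⊆ AR P w := by
  classical
  rw [mem_Red]
  constructor
  · rintro ⟨h1, h2⟩
    refine ⟨fun s hs => ?_, fun s hs => ?_⟩
    · simp only [AL, Finset.mem_filter, Finset.mem_univ, true_and]
      exact h1 s (by exact_mod_cast hs)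
    · simp only [AR, Finset.mem_filter, Finset.mem_univ, true_and]
      exact h2 s (by exact_mod_cast hs)
  · rintro ⟨h1, h2⟩
    refine ⟨fun s hs => ?_, fun s hs => ?_⟩
    · have := h1 (by exact_mod_cast hs : s ∈ X)
      simpa only [AL, Finset.mem_filter, Finset.mem_univ, true_and] using this
    · have := h2 (by exact_mod_cast hs : s ∈ Y)
      simpa only [AR, Finset.mem_filter, Finset.mem_univ, true_and] using this

/-- the longest element of the Weyl group -/
theorem exists_w0 [Finite G] :
    ∃ w0 : Wq P, (∀ s, len (sg P) (sg P s * w0) < len (sg P) w0) ∧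
      (∀ s, len (sg P) (w0 * sg P s) < len (sg P) w0) ∧
      (∀ w, (∀ s, len (sg P) (sg P s * w) < len (sg P) w) → w = w0) ∧
      (∀ w, (∀ s, len (sg P) (w * sg P s) < len (sg P) w) → w = w0) :=
  Cfsg.Agent.H51.St.exists_longest (sg P) (sg_mul_self P) (closure_range_sg P) (Ps P) (Ps_one P) (Ps_B P) (Ps_C P)

theorem AL_eq_empty_iff [Fintype P.S] (w : Wq P) :
    AL P w = ∅ ↔ ∀ s, len (sg P) (sg P s * w) < len (sg P) w := by
  classical
  rw [Finset.eq_empty_iff_forall_notMem]
  constructor
  · intro h s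
    have h1 := h s
    simp only [AL, Finset.mem_filter, Finset.mem_univ, true_and, not_lt] at h1
    exact lt_of_le_of_ne h1 (len_sg_mul_ne P s w)
  · intro h s hs
    simp only [AL, Finset.mem_filter, Finset.mem_univ, true_and] at hs
    exact absurd (h s) (not_lt.2 hs.le)

theorem AR_eq_empty_iff [Fintype P.S] (w : Wq P) :
    AR P w = ∅ ↔ ∀ s, len (sg P) (w * sg P s) < len (sg P) w := by
  classical
  rw [Finset.eq_empty_iff_forall_notMem]
  constructor
  · intro h s
    have h1 := h s
    simp only [AR, Finset.mem_filter, Finset.mem_univ, true_and, not_lt] at h1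
    exact lt_of_le_of_ne h1 (lenW_mul_right_ne P s w)
  · intro h s hs
    simp only [AR, Finset.mem_filter, Finset.mem_univ, true_and] at hs
    exact absurd (h s) (not_lt.2 hs.le)

open Classical in
theorem card_Red [Fintype P.S] [Fintype (Wq P)] (X Y : Finset P.S) :
    (Nat.card ↥(Red (sg P) (X : Set P.S) (Y : Set P.S)) : ℂ)
      = ∑ w : Wq P, (if X ⊆ AL P w then (1 : ℂ) else 0) * (if Y ⊆ AR P w then 1 else 0) := by
  rw [Nat.card_eq_fintype_card, Fintype.card_subtype, Finset.card_filter]
  push_cast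
  apply Finset.sum_congr rfl
  intro w _
  by_cases h : w ∈ Red (sg P) (X : Set P.S) (Y : Set P.S)
  · rw [if_pos h]
    obtain ⟨h1, h2⟩ := (mem_Red_coe P X Y w).1 h
    rw [if_pos h1, if_pos h2, mul_one]
  · rw [if_neg h]
    have := mt (mem_Red_coe P X Y w).2 h
    rw [not_and_or] at this
    rcases this with h1 | h2
    · rw [if_neg h1, zero_mul]
    · rw [if_neg h2, mul_zero]

theorem stein_eq_sum [Fintype P.S] :
    stein P = ∑ X ∈ (Finset.univ : Finset P.S).powerset,
      ((-1 : ℂ) ^ X.card) • fixedPointCharacter (par P (X : Set P.S)) := by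
  funext g
  simp only [stein, Finset.sum_apply, Pi.smul_apply, smul_eq_mul]

open Classical in
theorem inner_stein_pch [Fintype G] [Fintype P.S] (Y : Finset P.S) :
    classInner (stein P) (fixedPointCharacter (par P (Y : Set P.S))) = if Y = ∅ then 1 else 0 := by
  letI : Fintype (Wq P) := Fintype.ofFinite _
  obtain ⟨w0, hL, hR, huL, huR⟩ := exists_w0 P
  rw [stein_eq_sum, Cfsg.Agent.H4.classInner_sum_left]
  simp_rw [Cfsg.Agent.H4.classInner_smul_left, Cfsg.Agent.H37.St.classInner_pch, card_Red]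
  simp_rw [Finset.mul_sum]
  rw [Finset.sum_comm]
  have key : ∀ w : Wq P, ∑ X ∈ (Finset.univ : Finset P.S).powerset,
      (-1 : ℂ) ^ X.card * ((if X ⊆ AL P w then (1 : ℂ) else 0) * (if Y ⊆ AR P w then 1 else 0))
      = if w = w0 then (if Y = ∅ then 1 else 0) else 0 := by
    intro w
    have : ∀ X : Finset P.S,
        (-1 : ℂ) ^ X.card * ((if X ⊆ AL P w then (1 : ℂ) else 0) * (if Y ⊆ AR P w then 1 else 0))
        = ((-1 : ℂ) ^ X.card * (if X ⊆ AL P w then (1 : ℂ) else 0)) * (if Y ⊆ AR P w then 1 else 0) := by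
      intro X; ring
    simp_rw [this]
    rw [← Finset.sum_mul, alt_sum_subsets]
    by_cases hw : w = w0
    · subst hw
      rw [if_pos rfl, if_pos ((AL_eq_empty_iff P w).2 hL), one_mul]
      have hAR : AR P w = ∅ := (AR_eq_empty_iff P w).2 hR
      simp only [hAR, Finset.subset_empty]
    · rw [if_neg hw, if_neg, zero_mul]
      intro h
      exact hw (huL w ((AL_eq_empty_iff P w).1 h))
  simp_rw [key]
  rw [Finset.sum_ite_eq' Finset.univ w0]
  simp

theorem inner_stein_stein [Fintype G] [Fintype P.S] : classInner (stein P) (stein P) = 1 := by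
  classical
  conv_lhs => rw [stein_eq_sum P]
  rw [← stein_eq_sum P]
  conv_lhs => arg 2; rw [stein_eq_sum P]
  rw [Cfsg.Agent.H4.classInner_sum_right]
  simp_rw [Cfsg.Agent.H4.classInner_smul_right, inner_stein_pch]
  rw [Finset.sum_eq_single ∅]
  · simp
  · intro Y _ hY
    rw [if_neg hY, mul_zero]
  · intro h
    exact absurd (Finset.empty_mem_powerset _) h

theorem isCharacter_pch [Fintype G] (H : Subgroup G) : IsCharacter G (fixedPointCharacter H) := by
  have h1 : fixedPointCharacter H = indFun H (fun _ => (1 : ℂ)) := by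
    funext g
    rw [Cfsg.Agent.H19.indFun_one_eq_card_fixedBy]
    rfl
  rw [h1]
  exact Cfsg.Agent.H4.isCharacter_indFun H _
    (Cfsg.Agent.H4.isCharacter_of_isIrrCharacter Cfsg.Agent.H4.isIrrCharacter_one)

theorem isGeneralizedCharacter_stein [Fintype G] [Fintype P.S] :
    IsGeneralizedCharacter G (stein P) := by
  classical
  refine ⟨∑ X ∈ (Finset.univ : Finset P.S).powerset.filter (fun X => Even X.card),
      fixedPointCharacter (par P (X : Set P.S)),
    ∑ X ∈ (Finset.univ : Finset P.S).powerset.filter (fun X => ¬ Even X.card),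
      fixedPointCharacter (par P (X : Set P.S)), ?_, ?_, ?_⟩
  · exact Cfsg.Agent.H4.isCharacter_sum _ _ (fun X _ => isCharacter_pch _)
  · exact Cfsg.Agent.H4.isCharacter_sum _ _ (fun X _ => isCharacter_pch _)
  · rw [stein_eq_sum]
    rw [← Finset.sum_filter_add_sum_filter_not _ (fun X : Finset P.S => Even X.card)]
    rw [sub_eq_add_neg, ← Finset.sum_neg_distrib]
    congr 1
    · apply Finset.sum_congr rfl
      intro X hX
      rw [Finset.mem_filter] at hX
      rw [hX.2.neg_one_pow, one_smul]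
    · apply Finset.sum_congr rfl
      intro X hX
      rw [Finset.mem_filter] at hX
      rw [(Nat.not_even_iff_odd.1 hX.2).neg_one_pow, neg_one_smul]

open Classical in
theorem stein_borel [Fintype G] [Fintype P.S] (n0 : P.N)
    (h0 : ∀ s : P.S, len (sg P) (pr P n0 * sg P s) < len (sg P) (pr P n0)) (b : G) (hb : b ∈ P.B) :
    stein P b = fixedPointCharacter ((BInt P (n0 : G)).subgroupOf P.B) ⟨b, hb⟩ := by
  letI : Fintype (Wq P) := Fintype.ofFinite _
  obtain ⟨w0, hL, hR, huL, huR⟩ := exists_w0 P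
  have hw0 : pr P n0 = w0 := huR _ h0
  have hex : ∀ w : Wq P, ∃ n : P.N, pr P n = w := pr_surjective P
  choose rep hrep using hex
  let nrep : Wq P → G := fun w => if w = w0 then (n0 : G) else (rep w : G)
  have hnrep : ∀ w, ∃ h : nrep w ∈ P.N, pr P ⟨nrep w, h⟩ = w := by
    intro w
    by_cases hw : w = w0
    · have e : nrep w = (n0 : G) := if_pos hw
      refine ⟨by rw [e]; exact n0.2, ?_⟩
      have : (⟨nrep w, by rw [e]; exact n0.2⟩ : P.N) = n0 := Subtype.ext e
      rw [this, hw0, hw]
    · have e : nrep w = (rep w : G) := if_neg hw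
      refine ⟨by rw [e]; exact (rep w).2, ?_⟩
      have : (⟨nrep w, by rw [e]; exact (rep w).2⟩ : P.N) = rep w := Subtype.ext e
      rw [this, hrep]
  let F : Wq P → ℂ := fun w => fixedPointCharacter ((BInt P (nrep w)).subgroupOf P.B) ⟨b, hb⟩
  have h1 : ∀ Y : Finset P.S, fixedPointCharacter (par P (Y : Set P.S)) b
      = ∑ w : Wq P, F w * (if Y ⊆ AR P w then 1 else 0) := by
    intro Y
    rw [Cfsg.Agent.H27.St.pch_borel P (Y : Set P.S) nrep hnrep b hb, finsum_mem_def,
      finsum_eq_sum_of_fintype]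
    apply Finset.sum_congr rfl
    intro w _
    rw [Set.indicator_apply]
    have hiff : w ∈ Red (sg P) (∅ : Set P.S) (Y : Set P.S) ↔ Y ⊆ AR P w := by
      have := mem_Red_coe P ∅ Y w
      rw [Finset.coe_empty] at this
      rw [this]
      simp
    by_cases hY : Y ⊆ AR P w
    · rw [if_pos (hiff.2 hY), if_pos hY, mul_one]
    · rw [if_neg (mt hiff.1 hY), if_neg hY, mul_zero]
  have h2 : stein P b = ∑ w : Wq P, F w * (if AR P w = ∅ then 1 else 0) := by
    unfold stein
    simp_rw [h1, Finset.mul_sum]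
    rw [Finset.sum_comm]
    apply Finset.sum_congr rfl
    intro w _
    rw [← alt_sum_subsets (AR P w), Finset.mul_sum]
    apply Finset.sum_congr rfl
    intro Y _
    ring
  rw [h2, Finset.sum_eq_single w0]
  · rw [if_pos ((AR_eq_empty_iff P w0).2 hR), mul_one]
    show fixedPointCharacter ((BInt P (nrep w0)).subgroupOf P.B) ⟨b, hb⟩ = _
    have e : nrep w0 = (n0 : G) := if_pos rfl
    rw [e]
  · intro w _ hw
    rw [if_neg, mul_zero]
    intro h
    exact hw (huR w ((AR_eq_empty_iff P w).1 h))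
  · intro h
    exact absurd (Finset.mem_univ _) h

theorem stein_borel_of_min [Fintype G] [Fintype P.S] (n1 : P.N)
    (hmin : ∀ n : P.N, Nat.card ↥(BInt P (n1 : G)) ≤ Nat.card ↥(BInt P (n : G)))
    (b : G) (hb : b ∈ P.B) :
    stein P b = fixedPointCharacter ((BInt P (n1 : G)).subgroupOf P.B) ⟨b, hb⟩ := by
  obtain ⟨w0, hL, hR, huL, huR⟩ := exists_w0 P
  have h1 : pr P n1 = w0 := huL _ (fun s => Cfsg.Agent.H98.St.all_desc_of_min P n1 hmin s)
  exact stein_borel P n1 (by rw [h1]; exact hR) b hb

theorem fixedPointCharacter_one_pos {K : Type*} [Group K] [Finite K] (H : Subgroup K) :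
    0 < (fixedPointCharacter H (1 : K)).re := by
  unfold fixedPointCharacter
  rw [Complex.natCast_re]
  have : Nat.card (MulAction.fixedBy (K ⧸ H) (1 : K)) = Nat.card (K ⧸ H) := by
    rw [MulAction.fixedBy_one_eq_univ]
    exact Nat.card_congr (Equiv.Set.univ _)
  rw [this]
  exact_mod_cast Nat.card_pos

/-- **The Steinberg character of a finite group with a (B,N)-pair is irreducible.** -/
theorem stein_irr [Fintype G] [Fintype P.S] : IsIrrCharacter G (stein P) := by
  obtain ⟨w0, hL, hR, huL, huR⟩ := exists_w0 P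
  obtain ⟨n0, hn0⟩ := pr_surjective P w0
  apply Cfsg.Agent.H19.isIrrCharacter_of_genChar_norm_one _ (isGeneralizedCharacter_stein P)
    (inner_stein_stein P)
  rw [stein_borel P n0 (by rw [hn0]; exact hR) 1 P.B.one_mem]
  exact fixedPointCharacter_one_pos _

end Gen

end Cfsg.Agent.H68.St
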